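import Cfsg.Agent.H67.Pi
import Cfsg.Agent.H4.CoprimeAction

/-! Subgroups of prime order and elementary abelian groups of order `p ^ 2`. -/

set_option autoImplicit false

namespace Cfsg.Agent.H66

open Cfsg Cfsg.Agent.H63 Cfsg.Agent.H67 Subgroup

universe u

variable {G : Type u} [Group G]

/-- A subgroup of a subgroup of prime order is trivial or everything. -/
theorem eq_bot_or_eq_of_card_prime {X Y : Subgroup G} (hX : (Nat.card X).Prime) (h : Y ≤ X) :
    Y = ⊥ ∨ Y = X := by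
  have : Finite X := Nat.finite_of_card_ne_zero hX.ne_zero
  rcases (Nat.dvd_prime hX).1 (card_dvd_of_le h) with h1 | h1
  · left
    have : Finite Y := Nat.finite_of_card_ne_zero (by rw [h1]; exact one_ne_zero)
    exact (Subgroup.card_eq_one).1 h1
  · right
    exact eq_of_le_of_card_ge h h1.ge

theorem eq_of_le_of_card_prime {X Y : Subgroup G} (hX : (Nat.card X).Prime) (h : Y ≤ X)
    (hY : Y ≠ ⊥) : Y = X := (eq_bot_or_eq_of_card_prime hX h).resolve_left hY

theorem ne_bot_of_card_prime {X : Subgroup G} (hX : (Nat.card X).Prime) : X ≠ ⊥ := by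
  rintro rfl
  rw [card_bot] at hX
  exact Nat.not_prime_one hX

theorem inf_eq_bot_of_card_prime_of_not_le {X Y : Subgroup G} (hX : (Nat.card X).Prime)
    (h : ¬ X ≤ Y) : X ⊓ Y = ⊥ := by
  rcases eq_bot_or_eq_of_card_prime hX (inf_le_left : X ⊓ Y ≤ X) with h1 | h1
  · exact h1
  · exact absurd (inf_eq_left.1 h1) h

theorem le_of_card_prime_of_inf_ne_bot {X Y : Subgroup G} (hX : (Nat.card X).Prime)
    (h : X ⊓ Y ≠ ⊥) : X ≤ Y := by
  by_contra h'
  exact h (inf_eq_bot_of_card_prime_of_not_le hX h')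

theorem inf_eq_bot_of_card_prime_of_ne {X Y : Subgroup G} (hX : (Nat.card X).Prime)
    (hY : (Nat.card Y).Prime) (h : X ≠ Y) : X ⊓ Y = ⊥ :=
  inf_eq_bot_of_card_prime_of_not_le hX fun h' =>
    h (eq_of_le_of_card_prime hY h' (ne_bot_of_card_prime hX))

theorem eq_zpowers_of_card_prime {X : Subgroup G} (hX : (Nat.card X).Prime) {x : G} (hx : x ∈ X)
    (h1 : x ≠ 1) : X = zpowers x :=
  (eq_of_le_of_card_prime hX (zpowers_le.2 hx) (by simpa using h1)).symm

theorem exists_eq_zpowers_of_card_prime {X : Subgroup G} (hX : (Nat.card X).Prime) :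
    ∃ x ∈ X, x ≠ 1 ∧ X = zpowers x := by
  obtain ⟨x, hx, h1⟩ := exists_ne_one_of_ne_bot (ne_bot_of_card_prime hX)
  exact ⟨x, hx, h1, eq_zpowers_of_card_prime hX hx h1⟩

theorem centralizer_eq_cent1_of_card_prime {X : Subgroup G} (hX : (Nat.card X).Prime) {x : G}
    (hx : x ∈ X) (h1 : x ≠ 1) : C[X] = C1[x] := by
  rw [eq_zpowers_of_card_prime hX hx h1, centralizer_zpowers]

theorem isCyclic_of_card_prime' {X : Subgroup G} (hX : (Nat.card X).Prime) : IsCyclic X := by
  have : Fact (Nat.card X).Prime := ⟨hX⟩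
  exact isCyclic_of_prime_card rfl

theorem isMulCommutative_of_card_prime {X : Subgroup G} (hX : (Nat.card X).Prime) :
    IsMulCommutative X := by
  have := isCyclic_of_card_prime' hX
  infer_instance

variable [Finite G] {p : ℕ}

/-- Two distinct subgroups of order `p` of an abelian group of order `p ^ 2` generate it. -/
theorem sup_eq_of_card_sq (hp : p.Prime) {A X Y : Subgroup G} (cA : IsMulCommutative A)
    (hA : Nat.card A = p ^ 2) (sX : X ≤ A) (sY : Y ≤ A) (hX : Nat.card X = p) (hY : Nat.card Y = p)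
    (h : X ≠ Y) : X ⊔ Y = A := by
  have hi := inf_eq_bot_of_card_prime_of_ne (hX ▸ hp) (hY ▸ hp) h
  have hn : X ≤ N[Y] := le_normalizer_of_le_centralizer
    (sX.trans ((le_centralizer_iff_isMulCommutative.2 cA).trans (centralizer_anti sY)))
  refine eq_of_le_of_card_ge (sup_le sX sY) ?_
  rw [card_sup_of_inf_eq_bot (Or.inl hn) hi, hX, hY, hA, sq]

/-- A nontrivial proper subgroup of a group of order `p ^ 2` has order `p`. -/
theorem card_eq_prime_of_lt_card_sq (hp : p.Prime) {A X : Subgroup G} (hA : Nat.card A = p ^ 2)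
    (h : X < A) (hX : X ≠ ⊥) : Nat.card X = p := by
  have hd := card_dvd_of_le h.le
  rw [hA] at hd
  obtain ⟨k, hk, he⟩ := (Nat.dvd_prime_pow hp).1 hd
  have h1 := card_lt_of_lt h
  rw [hA, he] at h1
  have hk2 : k < 2 := (Nat.pow_lt_pow_iff_right hp.one_lt).1 h1
  interval_cases k
  · exact absurd (Subgroup.card_eq_one.1 (by simpa using he)) hX
  · simpa using he

/-- A `p`-group normalizing a subgroup of order `p` centralizes it. -/
theorem le_centralizer_of_card_prime [Fact p.Prime] {P X : Subgroup G} (pP : IsPGroup p P)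
    (hX : Nat.card X = p) (nXP : P ≤ N[X]) : P ≤ C[X] := by
  have hp : p.Prime := Fact.out
  have pX : IsPGroup p X := IsPGroup.of_card (n := 1) (by simpa using hX)
  have h := H4.commutator_lt_of_isPGroup pP pX nXP (ne_bot_of_card_prime (hX ▸ hp))
  rcases eq_bot_or_eq_of_card_prime (hX ▸ hp) h.le with h1 | h1
  · rw [← le_centralizer_iff, ← commutator_eq_bot_iff_le_centralizer]; exact h1
  · exact absurd h1 h.ne

/-- A `p`-element normalizing but not centralizing an abelian group `A` of order `p ^ 2` and centralizing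
the subgroup `Z` of order `p` permutes the other subgroups of order `p` of `A` transitively. -/
theorem p2Elem_trans [Fact p.Prime] {A Z A₀ A₁ : Subgroup G} {x : G} (cA : IsMulCommutative A)
    (hA : Nat.card A = p ^ 2) (sZ : Z ≤ A) (hZ : Nat.card Z = p) (px : IsPGroup p (zpowers x))
    (nAx : x ∈ N[A]) (cZx : x ∈ C[Z]) (ncAx : x ∉ C[A]) (s₀ : A₀ ≤ A) (h₀ : Nat.card A₀ = p)
    (n₀ : A₀ ≠ Z) (s₁ : A₁ ≤ A) (h₁ : Nat.card A₁ = p) (n₁ : A₁ ≠ Z) :
    ∃ y ∈ zpowers x, A₁ = cj y A₀ := by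
  have hp : p.Prime := Fact.out
  have pA : IsPGroup p A := IsPGroup.of_card hA
  have ntA : A ≠ ⊥ := ne_bot_mono (ne_bot_of_card_prime (hZ ▸ hp)) sZ
  have nAX : zpowers x ≤ N[A] := zpowers_le.2 nAx
  have hlt := H4.commutator_lt_of_isPGroup px pA nAX ntA
  have hnt : ⁅A, zpowers x⁆ ≠ ⊥ := by
    rw [Ne, commutator_eq_bot_iff_le_centralizer, le_centralizer_iff, zpowers_le]
    exact ncAx
  have hW := card_eq_prime_of_lt_card_sq hp hA hlt hnt
  have cW : zpowers x ≤ C[⁅A, zpowers x⁆] :=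
    le_centralizer_of_card_prime px hW (le_normalizer_commutator nAX le_normalizer)
  have eWZ : ⁅A, zpowers x⁆ = Z := by
    by_contra hne
    apply ncAx
    rw [← sup_eq_of_card_sq hp cA hA hlt.le sZ hW hZ hne, centralizer_sup]
    exact ⟨cW (mem_zpowers x), cZx⟩
  obtain ⟨a, ha, a1, rfl⟩ := exists_eq_zpowers_of_card_prime (h₀ ▸ hp)
  have aA : a ∈ A := s₀ ha
  have hdef := sup_eq_of_card_sq hp cA hA s₀ sZ h₀ hZ n₀
  set w : G := x * a * x⁻¹ * a⁻¹ with hw
  have wZ : w ∈ Z := by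
    rw [← eWZ, commutator_comm]
    exact commutator_mem_commutator (mem_zpowers x) aA
  have w1 : w ≠ 1 := by
    intro h
    apply ncAx
    rw [← hdef, centralizer_sup, centralizer_zpowers]
    refine ⟨mem_centralizer_singleton_iff.2 ?_, cZx⟩
    have : x * a * x⁻¹ * a⁻¹ = 1 := h
    rw [mul_inv_eq_one, mul_inv_eq_iff_eq_mul] at this
    exact this
  have hxw : ∀ n : ℤ, Commute x (w ^ n) := fun n =>
    (mem_centralizer_iff.1 cZx _ (zpow_mem wZ n)).symm
  have hstep : x * a * x⁻¹ = w * a := by rw [hw]; group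
  have hnat : ∀ n : ℕ, x ^ n * a * (x ^ n)⁻¹ = w ^ n * a := by
    intro n
    induction n with
    | zero => simp
    | succ n ih =>
      have h1 : x ^ (n + 1) * a * (x ^ (n + 1))⁻¹ = x * (x ^ n * a * (x ^ n)⁻¹) * x⁻¹ := by group
      have h2 := hxw n
      rw [zpow_natCast] at h2
      rw [h1, ih, ← mul_assoc, h2.eq, mul_assoc (w ^ n), mul_assoc (w ^ n), hstep, ← mul_assoc,
        ← pow_succ]
  have hdef1 := sup_eq_of_card_sq hp cA hA sZ s₁ hZ h₁ (Ne.symm n₁)
  have hn : A₁ ≤ N[Z] := le_normalizer_of_le_centralizer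
    (s₁.trans ((le_centralizer_iff_isMulCommutative.2 cA).trans (centralizer_anti sZ)))
  obtain ⟨z, hz, b, hb, hzb⟩ := (mem_sup_of_le_normalizer' hn).1 (hdef1 ▸ aA)
  have b1 : b ≠ 1 := by
    rintro rfl
    rw [mul_one] at hzb
    exact n₀ (eq_of_le_of_card_prime (hZ ▸ hp) (zpowers_le.2 (hzb ▸ hz)) (by simpa using a1))
  have hz' : z⁻¹ ∈ zpowers w := eq_zpowers_of_card_prime (hZ ▸ hp) wZ w1 ▸ inv_mem hz
  obtain ⟨n, hn⟩ := (mem_powers_iff_mem_zpowers.2 hz')
  refine ⟨x ^ n, npow_mem_zpowers x n, ?_⟩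
  rw [cj_zpowers, hnat n, eq_zpowers_of_card_prime (h₁ ▸ hp) hb b1]
  congr 1
  have : w ^ n = z⁻¹ := hn
  rw [this, ← hzb, inv_mul_cancel_left]

end Cfsg.Agent.H66
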