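import Cfsg.Agent.H41.JU3Defs
import Cfsg.Agent.H24.JmALLD
import Cfsg.Agent.H7.JmOK
import Cfsg.Agent.H86.JmCONG
import Cfsg.Agent.H44.JmTI
import Cfsg.Agent.H47.JmNC
import Cfsg.Agent.H33.JmFIX
import Cfsg.Agent.H62.JmINV
import Cfsg.Agent.H33.J4Odd1

/-! Project JU3, piece SV: the sieve on the order of an overgroup. -/

set_option autoImplicit false

namespace Cfsg.Agent.H41.JU3

open Subgroup Cfsg.Agent.H97.JM Cfsg.Agent.H33.J4O

universe u

theorem SV.num : allD (fun n => n % 1512 != 0 || n / 216 % 27 != 1 || n / 21 % 7 != 1 || !ok n ||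
    n == 6048 || n == 5721408 || n == 6267469824 || n == 1712613672 || n == 263778729984) = true := by
  decide +kernel

theorem SV.none : ∀ n ∈ [1712613672, 263778729984], ∀ d ∈ Nat.divisors 240,
    n / (1331 * d) % 1331 = 1 → ¬ 1331 * d ∣ n := by decide +kernel

theorem SV.fac : (272498688 : ℕ).factorization 7 = 1 := by
  rw [show (272498688 : ℕ) = 7 ^ 1 * 38928384 by norm_num,
    Nat.factorization_mul (by norm_num) (by norm_num), Finsupp.add_apply,
    Nat.Prime.factorization_pow (by norm_num), Finsupp.single_eq_same,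
    Nat.factorization_eq_zero_of_not_dvd (by norm_num)]

theorem pSV : SV.{u} := by
  intro G _ _ c h43 H hH d1512 k27 k7
  have : Fact (Nat.Prime 11) := ⟨by norm_num⟩
  have : Fact (Nat.Prime 43) := ⟨by norm_num⟩
  have k := pALLD _ SV.num _ (c.card ▸ H.card_subgroup_dvd_card)
  simp only [pOK pCONG G c H, k27, k7, Nat.mod_eq_zero_of_dvd d1512, bne_self_eq_false,
    Bool.not_true, Bool.false_or, Bool.or_eq_true, beq_iff_eq] at k
  have ti : Nat.card H ∉ [1712613672, 263778729984] := fun hn => by
    obtain ⟨P, hP⟩ := Sylow.exists_subgroup_card_pow_prime (G := H) 11 (n := 3) (by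
      simp only [List.mem_cons, List.not_mem_nil, or_false] at hn
      rcases hn with t | t <;> rw [t] <;> norm_num)
    obtain ⟨U, hU⟩ := exists_sylow (p := 11) (A := P.map H.subtype) (k := 3)
      (by rw [card_map_of_injective H.subtype_injective, hP]) (by rw [c.card]; norm_num)
    have UH : (U : Subgroup G) ≤ H := hU ▸ map_subtype_le P
    have ti := pTI G c U H UH
    obtain ⟨u1, u2⟩ := c.n11 U
    obtain ⟨e, he⟩ := card_dvd_of_le (le_inf UH le_normalizer)
    have d1 := card_dvd_of_le (inf_le_left (a := H) (b := normalizer ((U : Subgroup G) : Set G)))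
    have d2 := card_dvd_of_le (inf_le_right (a := H) (b := normalizer ((U : Subgroup G) : Set G)))
    rw [he, u1] at ti d1 d2
    rw [u2] at d2
    exact SV.none _ hn e (Nat.mem_divisors.2 ⟨Nat.dvd_of_mul_dvd_mul_left (k := 1331) (by norm_num)
      d2, by norm_num⟩) ti d1
  rcases k with (((k | k) | k) | k) | k
  · exact k
  · exfalso
    obtain ⟨a, ha, oa⟩ := exists_ord (A := H) (p := 43) (by norm_num) (by rw [k]; norm_num)
    obtain ⟨-, na⟩ := c.big 43 14 (by simp) a oa
    obtain ⟨d, d1, d2, d3, d4⟩ := pCONG G H 43 14 a (by norm_num) ha oa (by rw [k]; norm_num) na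
    rw [k] at d3 d4
    have d5 : d = 14 := by
      have := Nat.le_of_dvd (by norm_num) d2
      interval_cases d <;> simp_all
    have e : H ⊓ normalizer ((zpowers a : Subgroup G) : Set G) =
        normalizer ((zpowers a : Subgroup G) : Set G) :=
      eq_of_le_of_card_ge inf_le_right (by rw [d1, d5, na])
    obtain ⟨U, hU⟩ := exists_sylow (p := 43) (A := zpowers a) (k := 1)
      (by rw [Nat.card_zpowers, oa, pow_one]) (by rw [c.card]; norm_num)
    have co := h43 U
    rw [hU] at co
    rcases co.le_iff.1 (inf_eq_right.1 e) with h | h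
    · exact hH h
    · rw [h, na] at k
      omega
  · exfalso
    obtain ⟨a, ha, oa⟩ := exists_ord (A := H) (p := 23) (by norm_num) (by rw [k]; norm_num)
    obtain ⟨ca, na⟩ := c.big 23 22 (by simp) a oa
    obtain ⟨d, d1, d2, d3, d4⟩ := pCONG G H 23 22 a (by norm_num) ha oa (by rw [k]; norm_num) na
    rw [k] at d3 d4
    have d5 : d = 1 := by
      have := Nat.le_of_dvd (by norm_num) d2
      interval_cases d <;> simp_all
    have e : zpowers a = H ⊓ normalizer ((zpowers a : Subgroup G) : Set G) :=
      eq_of_le_of_card_ge (le_inf (zpowers_le.2 ha) le_normalizer)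
        (by rw [d1, d5, Nat.card_zpowers, oa])
    obtain ⟨R, -, r2, r3, r4⟩ := pNC G H 23 a (by norm_num) ha oa (by rw [← e, ca]) fun h => by
      have := h.trans (card_dvd_of_le (inf_le_left : H ⊓ centralizer ({a} : Set G) ≤ H))
      rw [k] at this; norm_num at this
    obtain ⟨S, -, s2, s3⟩ := pINV pFIX G R 23 7 a (by norm_num) (by norm_num) oa (r2 ha) r4
    have cR : Nat.card R = 272498688 :=
      Nat.eq_of_mul_eq_mul_left (by norm_num : 0 < 23) (r3.symm.trans (k.trans (by norm_num)))
    have f7 : (Nat.card R).factorization 7 = 1 := by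
      rw [cR]
      exact SV.fac
    rw [f7, pow_one] at s2
    have f := pFIX G S 23 a (by norm_num) oa s3
    have e1 := card_dvd_of_le (inf_le_left : S ⊓ centralizer ({a} : Set G) ≤ S)
    have e2 := card_dvd_of_le (inf_le_right : S ⊓ centralizer ({a} : Set G) ≤ _)
    rw [s2] at f e1
    have e3 : Nat.card (centralizer ({a} : Set G)) = 23 := by rw [ca, Nat.card_zpowers, oa]
    rw [e3] at e2
    have e4 := Nat.dvd_gcd e1 e2
    rw [Nat.dvd_one.1 (show _ ∣ 1 from e4)] at f
    exact absurd f (by norm_num)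
  · exact absurd (by simp [k]) ti
  · exact absurd (by simp [k]) ti

end Cfsg.Agent.H41.JU3
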