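import Cfsg.Agent.H19.MWKit2

/-! # MW project: automorphisms normalising `V` are inner; the outer involution -/

set_option autoImplicit false
set_option maxRecDepth 100000
set_option synthInstance.maxSize 2048
open scoped Pointwise commutatorElement
open Subgroup

namespace Cfsg.Agent.H66.MI
open Cfsg.Agent.H19.MW Cfsg.Agent.H24.MH Cfsg.Agent.H23.D2 Cfsg.Agent.H8
open Cfsg.Agent.H42 (tb cnt)

local notation "C[" A "]" => Subgroup.centralizer (SetLike.coe A)
local notation "N[" A "]" => Subgroup.normalizer (SetLike.coe A)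

universe v
variable {G : Type*} [Group G]

/-- the matrix of a homomorphism -/
theorem hom_mat {H : Type*} [Group H] {A : Subgroup G} {σ : ℕ → G} (h : B0 A σ) {B : Subgroup H}
    {τ : ℕ → H} (k : B0 B τ) (f : G →* H) (hf : ∀ a ∈ A, f a ∈ B) :
    ∃ M < 65536, ∀ v < 16, f (σ v) = τ (mm M v) := by
  have key : ∀ v < 16, ∃ u < 16, τ u = f (σ v) := fun v hv => k.surj _ (hf _ (h.mem v hv))
  obtain ⟨a, ha, ea⟩ := key 1 (by norm_num)
  obtain ⟨b, hb, eb⟩ := key 2 (by norm_num)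
  obtain ⟨c, hc, ec⟩ := key 4 (by norm_num)
  obtain ⟨d, hd, ed⟩ := key 8 (by norm_num)
  refine ⟨a + 16 * b + 256 * c + 4096 * d, by omega, fun v hv => ?_⟩
  refine vec_induction
    (P := fun v => f (σ v) = τ (mm (a + 16 * b + 256 * c + 4096 * d) v)) ?_ ?_ ?_ ?_ ?_ ?_ hv
  · simp [mm_zero, h.mul.zero, k.mul.zero]
  · rw [mm_e0, ← ea, col_eq]; congr 1; omega
  · rw [mm_e1, ← eb, col_eq]; congr 1; omega
  · rw [mm_e2, ← ec, col_eq]; congr 1; omega
  · rw [mm_e3, ← ed, col_eq]; congr 1; omega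
  · intro u hu v hv x y
    rw [mm_xor _ hu hv, h.mul _ hu _ hv, k.mul _ (mm_vec_lt _ hu) _ (mm_vec_lt _ hv), ← x, ← y,
      map_mul]

theorem map_norm [Finite G] (φ : MulAut G) {A B : Subgroup G} (e : A.map φ.toMonoidHom = B) {g : G}
    (hg : g ∈ N[A]) : φ g ∈ N[B] := by
  subst e
  refine mem_N_of ?_
  rintro _ ⟨a, ha, rfl⟩
  exact ⟨_, norm_conj hg ha, by simp⟩

theorem card_map (φ : MulAut G) (A : Subgroup G) :
    Nat.card (A.map φ.toMonoidHom) = Nat.card A := card_map_of_injective φ.injective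

theorem map_eq [Finite G] (φ : MulAut G) {A : Subgroup G} (h : ∀ a ∈ A, φ a ∈ A) :
    A.map φ.toMonoidHom = A :=
  eq_of_le_of_card_ge (by rintro _ ⟨a, ha, rfl⟩; exact h a ha) (card_map φ A).ge

/-- a cocycle with values in an elementary abelian `2`-group that vanishes on a subgroup of odd
index and on a fixed point free element vanishes -/
theorem fix_of_odd [Finite G] {U K : Subgroup G} (φ : G →* G) (hs : ∀ a ∈ U, a * a = 1)
    (hK : K ≤ N[U]) (hm : ∀ n ∈ K, φ n * n⁻¹ ∈ U)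
    (ho : Odd ((φ.eqLocus (MonoidHom.id G)).relIndex K)) {h : G} (hh : h ∈ K) (hf : φ h = h)
    (fpf : ∀ u ∈ U, h * u = u * h → u = 1) : ∀ n ∈ K, φ n = n := by
  classical
  let _ : CommGroup U := { (inferInstance : Group U) with
    mul_comm := fun a b => Subtype.ext (comm_of_sq hs a.2 b.2) }
  set H := (φ.eqLocus (MonoidHom.id G)).subgroupOf K
  let c : K → U := fun n => ⟨_, hm n n.2⟩
  let α : K → U →* U := fun m =>
    { toFun := fun u => ⟨_, norm_conj (hK m.2) u.2⟩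
      map_one' := Subtype.ext (by simp)
      map_mul' := fun a b => Subtype.ext (by
        show (m : G) * (a * b) * (m : G)⁻¹ = m * a * (m : G)⁻¹ * (m * b * (m : G)⁻¹)
        group) }
  have h1 : ∀ m n : K, c (m * n) = c m * α m (c n) := fun m n => Subtype.ext (by
    show φ (m * n) * ((m : G) * n)⁻¹ = φ m * (m : G)⁻¹ * (m * (φ n * (n : G)⁻¹) * (m : G)⁻¹)
    rw [map_mul]; group)
  have h2 : ∀ a b : K, (a : K ⧸ H) = b → c a = c b := fun a b e => Subtype.ext (by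
    have : φ ((a : G)⁻¹ * b) = (a : G)⁻¹ * b := QuotientGroup.eq.1 e
    show φ a * (a : G)⁻¹ = φ b * (b : G)⁻¹
    rw [map_mul, map_inv] at this
    calc φ a * (a : G)⁻¹ = φ a * ((a : G)⁻¹ * b) * (b : G)⁻¹ := by group
      _ = _ := by rw [← this]; group)
  have : Fintype (K ⧸ H) := Fintype.ofFinite _
  have h3 : ∀ m : K, ∏ q : K ⧸ H, c q.out = c m * α m (∏ q : K ⧸ H, c q.out) := fun m => by
    conv_lhs => rw [← Equiv.prod_comp (MulAction.toPerm m) fun q : K ⧸ H => c q.out]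
    have : ∀ q : K ⧸ H, c (MulAction.toPerm m q).out = c m * α m (c q.out) := fun q => by
      rw [← h1]
      refine h2 _ _ ?_
      rw [QuotientGroup.out_eq', MulAction.toPerm_apply, ← smul_eq_mul, ← MulAction.Quotient.smul_coe,
        QuotientGroup.out_eq']
    simp only [this]
    obtain ⟨k, hk⟩ := ho
    rw [Finset.prod_mul_distrib, Finset.prod_const, ← map_prod, Finset.card_univ,
      ← Nat.card_eq_fintype_card, show Nat.card (K ⧸ H) = 2 * k + 1 from hk, pow_succ, pow_mul,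
      pow_two, show c m * c m = 1 from Subtype.ext (hs _ (c m).2), one_pow, one_mul]
  have h4 : ∏ q : K ⧸ H, c q.out = 1 := by
    generalize ∏ q : K ⧸ H, c q.out = u at h3
    have : (u : G) = φ h * h⁻¹ * (h * u * h⁻¹) := congrArg Subtype.val (h3 ⟨h, hh⟩)
    rw [hf, mul_inv_cancel, one_mul, eq_mul_inv_iff_mul_eq] at this
    exact Subtype.ext (fpf _ u.2 this.symm)
  intro n hn
  have := h3 ⟨n, hn⟩
  rw [h4, map_one, mul_one] at this
  exact mul_inv_eq_one.1 (congrArg Subtype.val this.symm)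

section
variable {θ : ℕ → G} (t : TM θ)
include t

/-- an element normalising `V` and the four-group normalises `U` -/
theorem mem_NU (B : Bas (VV θ) θ) {h : G} {M : ℕ} (a : Act θ h M)
    (e : ∀ u < 16, ∃ u' < 16, mm M (am (up u)) = mm (am (up u')) M) : h ∈ N[UU θ] := by
  have h1 : MulAut.conj h • UU θ ≤ T0 θ := by
    rintro _ ⟨x, hx, rfl⟩
    obtain ⟨u, hu, rfl⟩ := t.mem_UU.1 hx
    obtain ⟨u', hu', e⟩ := e u hu
    obtain ⟨v, hv, ev⟩ := B.same ((t.act (up_lt' hu')).mul a) ((a.mul (t.act (up_lt' hu))).of_eq e)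
    show h * θ (up u) * h⁻¹ ∈ T0 θ
    rw [ev, ← mul_assoc, mul_inv_cancel_right]
    exact mul_mem (th_T0 θ (by omega)) (th_T0 θ (up_lt' hu'))
  refine mem_N_iff.2 ((t.e16 h1 (sq_conj (fun _ => t.bU.sq) h)
    (by rw [card_conj, t.card_UU])).resolve_left fun c => t.V_ne_U ?_)
  exact MulAction.injective _ ((mem_N_iff.1 (B.mem_norm a)).trans c.symm)

theorem fpf_U (B : Bas (VV θ) θ) {h : G} (a : Act θ h hM) {x : G} (hx : x ∈ UU θ)
    (e : h * x = x * h) : x = 1 := by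
  obtain ⟨u, hu, rfl⟩ := t.mem_UU.1 hx
  refine B.eq_one_of_fpf a hM_fpf ((t.act (up_lt' hu)).of_eq ?_) e
  exact (by decide +kernel : ∀ u < 16, mm hM (am (up u)) = mm (am (up u)) hM → am (up u) = I4) u hu
    (B.comm_of a (t.act (up_lt' hu)) e)

end

theorem act_map {σ : ℕ → G} {φ : MulAut G} (hφ : ∀ v < 16, φ (σ v) = σ v) {g : G} {M : ℕ}
    (a : Act σ g M) : Act σ (φ g) M :=
  ⟨a.1, fun v hv => by
    rw [← hφ _ (mm_vec_lt M hv), ← a.2 v hv, map_mul, map_mul, map_inv, hφ v hv]⟩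

/-- an automorphism fixing `V` and `h` fixes the normaliser of `V` -/
theorem fix_NV {V : Subgroup G} {σ : ℕ → G} (X : Aut V σ m7) {h f k b l : G} (D : D1 V σ h f k b)
    (al : Act σ l lM) (lh : l * h * l⁻¹ = h) (lb : l * b * l⁻¹ = b) {φ : MulAut G}
    (hφ : ∀ v < 16, φ (σ v) = σ v) (hh : φ h = h) : ∀ n ∈ N[V], φ n = n := by
  have B := b0_of_bas D.bas
  have h0 : ∀ {n : G} {M : ℕ}, Act σ n M → Act σ (φ n * n⁻¹) I4 := fun a =>
    B.act_I4.2 (B.same' a (act_map hφ a))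
  have h1 : ∀ {n : G} {M : ℕ}, Act σ n M → n ∈ Inv h → φ n = n := fun {n M} a i => by
    refine mul_inv_eq_one.1 (D.inv1 (h0 a) (mul_mem ?_ (inv_mem i)))
    refine Or.imp (fun e => ?_) (fun e => ?_) i
    · simpa [hh] using congrArg φ e
    · simpa [hh] using congrArg φ e
  have hl := h1 al (Or.inl lh)
  have hb : φ b = b := by
    refine mul_inv_eq_one.1 (D.bas.eq_one_of_fpf al (by decide +kernel) (h0 D.ab) ?_)
    have e : l * φ b * l⁻¹ = φ b := by simpa [hl] using congrArg φ lb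
    calc l * (φ b * b⁻¹) = l * φ b * l⁻¹ * (l * b * l⁻¹)⁻¹ * l := by group
      _ = _ := by rw [e, lb]
  have hf := h1 D.af D.f_inv
  have hk := h1 D.ak D.k_inv
  intro n hn
  obtain ⟨M, hM, a⟩ := X.act n hn
  obtain ⟨g, e, c⟩ := gen7' (P := fun M => ∃ g, φ g = g ∧ Act σ g M)
    (fun _ _ ⟨x, x1, x2⟩ ⟨y, y1, y2⟩ => ⟨x * y, by rw [map_mul, x1, y1], x2.mul y2⟩)
    ⟨b * (h * (k * (h * b * h⁻¹))), by simp [hb, hh, hk],
      (D.ab.mul (D.ah.mul (D.ak.mul D.ab2))).of_eq (by decide +kernel)⟩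
    ⟨h * (h * b * h⁻¹ * (f * l)), by simp [hb, hh, hf, hl],
      (D.ah.mul (D.ab2.mul (D.af.mul al))).of_eq (by decide +kernel)⟩ hM
  obtain ⟨v, hv, rfl⟩ := D.bas.same c a
  rw [map_mul, hφ v hv, e]

theorem inn : InnStmt.{v} := by
  intro G _ _ θ t X ho hC hT φ hφ
  have : Fact (Nat.Prime 2) := ⟨Nat.prime_two⟩
  obtain ⟨R, lR, hR⟩ := hom_mat t.bV t.bV φ.toMonoidHom hφ
  replace hR : ∀ v < 16, φ (θ v) = θ (mm R v) := hR
  have mR : tb m7 R = true := by
    refine norm7 R lR (fun v hv e => t.bV.inj v hv ?_) fun A hA => ?_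
    · have := hR v hv
      rwa [e, t.zero, map_eq_one_iff _ φ.injective] at this
    · obtain ⟨g, a⟩ := X.real A hA
      obtain ⟨A', a1, a2⟩ := X.act _ (map_norm φ (map_eq φ hφ) (X.bas.mem_norm a))
      refine ⟨A', a1, eq_of_mm (mm_lt _ _) (mm_lt _ _) fun v hv => ?_⟩
      rw [mm_assoc_vec _ _ hv, mm_assoc_vec _ _ hv]
      refine t.bV.inj2 (mm_vec_lt _ (mm_vec_lt _ hv)) (mm_vec_lt _ (mm_vec_lt _ hv)) ?_
      rw [← a2.2 _ (mm_vec_lt _ hv), ← hR _ (mm_vec_lt _ hv), ← hR v hv, ← a.2 v hv]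
      simp
  obtain ⟨g, ag⟩ := X.real R mR
  obtain ⟨h, f, k, b, l, D, al, lh, lb⟩ := exists_D1l X xok7 lM_mem
  have e1 : ∀ v < 16, (MulAut.conj g⁻¹ * φ) (θ v) = θ v := fun v hv => by
    simp only [MulAut.mul_apply, MulAut.conj_apply, hR v hv, ← ag.2 v hv]; group
  obtain ⟨c, ac, ec⟩ := X.bas.adjust (act_map e1 D.ah) D.ah Act.one (M' := I4) (by decide +kernel)
    (by decide) (by decide +kernel) (by decide +kernel)
  set ψ := MulAut.conj c * (MulAut.conj g⁻¹ * φ) with hψ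
  have e2 : ∀ v < 16, ψ (θ v) = θ v := fun v hv => by
    rw [hψ, MulAut.mul_apply, e1 v hv, MulAut.conj_apply, ac.2 v hv, mm_I4 v hv]
  have e3 : ψ h = h := ec
  have e4 := fix_NV X D al lh lb e2 e3
  have e5 := fix_of_odd (U := UU θ) (K := N[UU θ]) ψ.toMonoidHom (fun _ => t.bU.sq) le_rfl
    (fun n hn => hC (mem_C.2 fun u hu => by
      have a1 : ∀ u ∈ UU θ, ψ u = u := fun u hu => e4 u (t.T0_le_NV (UU_le_T0 θ hu))
      have a2 := a1 _ (norm_conj' hn hu)
      rw [map_mul, map_mul, map_inv, a1 u hu] at a2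
      show u * (ψ n * n⁻¹) = ψ n * n⁻¹ * u
      calc u * (ψ n * n⁻¹) = ψ n * ((ψ n)⁻¹ * u * ψ n) * n⁻¹ := by group
        _ = _ := by rw [a2]; group))
    (Nat.not_even_iff_odd.1 fun c => ((sylow_T0 t X ho).mono t.T0_le_NU le_top).not_dvd
      ((even_iff_two_dvd.1 c).trans (relIndex_dvd_of_le_left _ fun x hx => e4 x (t.T0_le_NV hx))))
    (mem_NU t X.bas D.ah (by decide +kernel)) e3 fun u hu => fpf_U t X.bas D.ah hu
  have e6 : ψ.toMonoidHom.eqLocus (MonoidHom.id G) = ⊤ :=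
    top_le_iff.1 (hT ▸ sup_le (fun x hx => e4 x hx) fun x hx => e5 x hx)
  refine ⟨g * c⁻¹, fun x => ?_⟩
  have : c * (g⁻¹ * φ x * g⁻¹⁻¹) * c⁻¹ = x := (e6.ge (mem_top x) :)
  calc φ x = g * c⁻¹ * (c * (g⁻¹ * φ x * g⁻¹⁻¹) * c⁻¹) * (g * c⁻¹)⁻¹ := by group
    _ = _ := by rw [this]

theorem invB : InvBStmt.{v} := by
  intro G _ _ θ t X h ah aU φ hT hV m hm hφ
  have key : ∀ {E : Subgroup G}, E ≤ T0 θ → (∀ x ∈ E, x * x = 1) → Nat.card E = 16 →
      E.map φ.toMonoidHom = VV θ ∨ E.map φ.toMonoidHom = UU θ := fun a b c =>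
    t.e16 (by rintro _ ⟨x, hx, rfl⟩; exact hT x (a hx))
      (by rintro _ ⟨x, hx, rfl⟩; rw [← map_mul, b x hx, map_one]) (by rw [card_map, c])
  have eV := (key (VV_le_T0 θ) (fun _ => t.bV.sq) t.card_VV).resolve_left fun e =>
    hV fun v hv => e ▸ mem_map_of_mem _ hv
  have eU := (key (UU_le_T0 θ) (fun _ => t.bU.sq) t.card_UU).resolve_right fun e =>
    t.V_ne_U (map_injective φ.injective (eV.trans e.symm))
  obtain ⟨M, mM, aM⟩ := X.act _ (map_norm φ eU (t.bU.mem_norm aU))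
  have nU := map_norm φ eV (t.bV.mem_norm ah)
  have lv : ∀ D ∈ LV, ∃ u < 16, am (up u) = D := by decide +kernel
  have lv' : ∀ u < 16, am (up u) ∈ LV := by decide +kernel
  obtain ⟨k, hk, ek⟩ := invb7 mM (X.bas.unique (aM.mul (aM.mul aM)) (by
      rw [← map_mul, ← map_mul, ← mul_assoc, X.bas.cube_eq_one ah hM_fpf (by decide +kernel), map_one]
      exact Act.one))
    (fun v hv e => by
      obtain ⟨u, hu, e1⟩ := eU.ge (t.bV.mem v hv)
      have e2 := aM.comm_of_fix hv e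
      rw [← e1] at e2
      refine t.bV.inj v hv ?_
      rw [← e1, fpf_U t X.bas ah hu (φ.injective (by simpa using e2)), map_one])
    (fun D hD => by
      obtain ⟨u, hu, rfl⟩ := lv D hD
      obtain ⟨u', hu', e⟩ := t.mem_UU.1 (norm_conj nU (t.bU.mem u hu))
      refine ⟨_, lv' u' hu', X.bas.unique (aM.mul (t.act (up_lt' hu))) ?_⟩
      rw [show φ h * θ (up u) = θ (up u') * φ h by rw [e]; group]
      exact (t.act (up_lt' hu')).mul aM)
    (fun D hD e => by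
      obtain ⟨u, hu, rfl⟩ := lv D hD
      have a := t.act (up_lt' hu)
      obtain ⟨s, hs, e1⟩ := eV.ge (t.bU.mem u hu)
      obtain ⟨w, hw, rfl⟩ := t.mem_VV.1 hs
      replace e1 : φ (θ w) = θ (up u) := e1
      obtain ⟨y, hy, e2⟩ := eU.ge (X.bas.cen (t.bV.same' (a.mul aM) ((aM.mul a).of_eq e)))
      have e3 : y = θ (mm hM w ^^^ w) := by
        rw [t.pre _ (mm_vec_lt _ hw) _ hw, ← ah.2 w hw]
        refine φ.injective (e2.trans ?_)
        rw [← e1, ← map_mul, ← map_mul, ← map_inv, ← map_mul, mul_inv_rev, t.pre.inv hw, mul_assoc,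
          mul_assoc, mul_assoc]
      have l := xor_lt16 (mm_vec_lt hM hw) hw
      rw [e3, SetLike.mem_coe, t.th_UU (by omega), Nat.mod_eq_of_lt l] at hy
      have w4 := (by decide +kernel : ∀ w < 16, mm hM w ^^^ w < 4 → w < 4) w hw hy.2
      refine X.bas.unique a (X.bas.act_of_mem ?_)
      rw [← e1]
      exact eU.le (mem_map_of_mem _ ((t.th_UU (by omega)).2 ⟨by omega, by omega⟩)))
  have ap := t.act (n := 16 * k) (by omega)
  obtain ⟨v, hv, ev⟩ := X.bas.same (ah.mul ap) ((ap.mul aM).of_eq ek)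
  obtain ⟨c, ac, ec⟩ := X.bas.adjust (X.bas.act_mul_left (X.bas.mem v hv) ah) ah Act.one (M' := I4)
    (by decide +kernel) (by decide) (by decide +kernel) (by decide +kernel)
  obtain ⟨n, hn, en⟩ := t.mem_T0.1 (mul_mem (VV_le_T0 θ (X.bas.cen (t.bV.act_I4.1 ac)))
    (th_T0 θ (n := 16 * k) (by omega)))
  have e1 : θ n * φ h * (θ n)⁻¹ = h := by
    rw [en, mul_assoc c, ev]
    calc _ = c * (θ v * h) * c⁻¹ := by group
      _ = h := ec
  obtain ⟨j, hj, ej⟩ := t.mem_T0.1 (mul_mem (mul_mem (th_T0 θ hn) (hT _ (th_T0 θ hn)))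
    (inv_mem (th_T0 θ hm)))
  have e2 : ∀ x, θ n * φ (θ n * φ x * (θ n)⁻¹) * (θ n)⁻¹ = θ j * x * (θ j)⁻¹ := fun x => by
    rw [ej, map_mul, map_mul, map_inv]
    conv_rhs => rw [← hφ x]
    group
  have e3 : h * θ j = θ j * h := by
    have := e2 h
    rw [e1, e1, eq_mul_inv_iff_mul_eq] at this
    exact this
  have e4 : θ j = 1 := X.bas.eq_one_of_fpf ah hM_fpf ((t.act hj).of_eq
    ((by decide +kernel : ∀ j < 128, mm hM (am j) = mm (am j) hM → am j = I4) j hj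
      (X.bas.comm_of ah (t.act hj) e3))) e3
  exact ⟨n, hn, fun x => by rw [e2, e4]; group⟩

end Cfsg.Agent.H66.MI
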