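import Cfsg.Agent.H19.MWKit4
import Cfsg.Agent.H66.MwInn

/-! # MW project: lifting the local structure through an odd kernel -/

set_option autoImplicit false
set_option maxRecDepth 100000
set_option synthInstance.maxSize 2048
open scoped Pointwise commutatorElement
open Subgroup

namespace Cfsg.Agent.H66.MI
open Cfsg.Agent.H19.MW Cfsg.Agent.H24.MH Cfsg.Agent.H23.D2 Cfsg.Agent.H8
open Cfsg.Agent.H42 (tb cnt)

local notation "C[" A "]" => Subgroup.centralizer (SetLike.coe A)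
local notation "N[" A "]" => Subgroup.normalizer (SetLike.coe A)

universe u v
variable {G : Type*} [Group G] {B : Type*} [Group B] {J : Subgroup G} {π : J →* B}

theorem ker_norm [Finite G] : J ≤ N[π.ker.map J.subtype] := fun x hx => mem_N_of fun o ho => by
  obtain ⟨a, b⟩ := mem_ker_map.1 ho
  exact mem_ker_map.2 ⟨mul_mem (mul_mem hx a) (inv_mem hx), by rw [ex_conj hx a, b]; group⟩

/-- the automorphism induced on the quotient -/
theorem exists_ind [Finite B] (hs : Function.Surjective π) {c : G} (hJ : c ∈ N[J])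
    (hO : c ∈ N[π.ker.map J.subtype]) :
    ∃ φ : MulAut B, ∀ x ∈ J, φ (ex π x) = ex π (c * x * c⁻¹) := by
  let ψ : J →* B := π.comp (J.normalizerMonoidHom ⟨c, hJ⟩).toMonoidHom
  have e : ∀ x : J, ψ x = ex π (c * x * c⁻¹) := fun x => (ex_eq (norm_conj hJ x.2)).symm
  let f := π.liftOfSurjective hs ⟨ψ, fun x hx => by
    rw [MonoidHom.mem_ker, e]
    exact (mem_ker_map.1 (norm_conj hO (mem_map_of_mem _ hx))).2⟩
  have ef : ∀ x : J, f (π x) = ψ x := fun x => π.liftOfRightInverse_comp_apply _ _ _ x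
  have sf : Function.Surjective f := fun y => by
    obtain ⟨g, hg, rfl⟩ := ex_surj hs y
    exact ⟨π ⟨_, norm_conj' hJ hg⟩, by rw [ef, e]; congr 1; group⟩
  exact ⟨MulEquiv.ofBijective f (Finite.surjective_iff_bijective.1 sf), fun x hx => by
    rw [ex_eq hx, MulEquiv.ofBijective_apply, ef, e]⟩

theorem sp_congr {θ η : ℕ → G} (e : ∀ n < 128, θ n = η n) (p : ℕ → Bool) : sp θ p = sp η p :=
  le_antisymm (sp_le fun n hn hp => e n hn ▸ th_mem_sp η hn hp)
    (sp_le fun n hn hp => e n hn ▸ th_mem_sp θ hn hp)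

theorem lift (hI : InvBStmt.{v}) : LiftStmt.{u, v} := by
  intro G _ _ B _ V σ m J π hs ho
  have : Fact (Nat.Prime 2) := ⟨Nat.prime_two⟩
  have : Finite B := Finite.of_surjective π hs
  obtain ⟨η, t, eV, -, X, h, ah, aU⟩ := exists_theta m.aut
  have sB := sylow_T0 t X (eV.symm ▸ m.odd)
  have oO : Odd (Nat.card (π.ker.map J.subtype)) := by
    rwa [card_map_of_injective J.subtype_injective]
  have inj : ∀ {P : Subgroup G}, IsPGroup 2 P → P ≤ J → ∀ {a b : G}, a ∈ P → b ∈ P →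
      ex π a = ex π b → a = b := fun {P} p l a b ha hb e => by
    have h1 := mul_mem ha (inv_mem hb)
    obtain ⟨n, hn⟩ := two_of_mem p h1
    exact mul_inv_eq_one.1 (eq_one_of_odd_two
      (odd_of_mem oO (mem_ker_map.2 ⟨l h1, (ex_div (l ha) (l hb)).2 e⟩)) hn)
  obtain ⟨R, sR⟩ := exists_isSylowIn 2 (pre π (T0 η))
  have RJ : R ≤ J := sR.le.trans pre_le
  have : ∀ n, ∃ r, n < 128 → r ∈ R ∧ ex π r = η n := fun n => by
    by_cases hn : n < 128
    · obtain ⟨g, hg, e⟩ := ex_surj hs (η n)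
      obtain ⟨r, a, b⟩ := onto_two sR pre_le (t.isPGroup.to_le im_pre_le)
        (mem_pre.2 ⟨hg, e ▸ th_T0 η hn⟩)
      exact ⟨r, fun _ => ⟨a, b.trans e⟩⟩
    · exact ⟨1, fun c => absurd c hn⟩
  choose θ hθ using this
  have mJ : ∀ n < 128, θ n ∈ J := fun n hn => RJ (hθ n hn).1
  have eθ : ∀ n < 128, ex π (θ n) = η n := fun n hn => (hθ n hn).2
  have T : TM θ := ⟨fun n hn k hk => inj sR.isPGroup RJ (mul_mem (hθ n hn).1 (hθ k hk).1)
      (hθ _ (tm_lt n hn k hk)).1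
      (by rw [ex_mul (mJ n hn) (mJ k hk), eθ n hn, eθ k hk, eθ _ (tm_lt n hn k hk), t.mul n hn k hk]),
    fun n hn k hk e => t.inj n hn k hk (by rw [← eθ n hn, ← eθ k hk, e])⟩
  have TJ : T0 θ ≤ J := sp_le fun n hn _ => mJ n hn
  have inT : ∀ {a b : G}, a ∈ T0 θ → b ∈ T0 θ → ex π a = ex π b → a = b := inj T.isPGroup TJ
  have eS : ∀ p, sp η p = im π (sp θ p) := fun p =>
    (sp_congr (fun n hn => (eθ n hn).symm) p).trans (sp_ex mJ p)
  have spT : ∀ p, sp θ p ≤ T0 θ := fun p => sp_mono θ fun _ _ _ => rfl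
  have up1 : ∀ p, ∀ y ∈ N[sp η p], ∃ g ∈ J, ex π g = y ∧ g ∈ N[sp θ p] := fun p y hy => by
    obtain ⟨g, hg, rfl⟩ := ex_surj hs y
    obtain ⟨o, a, b⟩ := adjust_odd (T.isPGroup.to_le (spT p)) oO (((spT p).trans TJ).trans ker_norm)
      (g := g) fun v hv => by
        have vJ := TJ (spT p hv)
        have h1 := norm_conj hy (eS p ▸ ex_mem_im hv vJ)
        rw [eS p] at h1
        obtain ⟨w, w1, w2, e⟩ := mem_im.1 h1
        have cJ := mul_mem (mul_mem hg vJ) (inv_mem hg)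
        have h2 : w⁻¹ * (g * v * g⁻¹) ∈ π.ker.map J.subtype := mem_ker_map.2
          ⟨mul_mem (inv_mem w2) cJ, by rw [ex_mul (inv_mem w2) cJ, ex_inv w2, ex_conj hg vJ, e]; group⟩
        simpa using mul_mem (mem_sup_left w1) (mem_sup_right h2 : _ ∈ sp θ p ⊔ _)
    obtain ⟨a1, a2⟩ := mem_ker_map.1 a
    exact ⟨o * g, mul_mem a1 hg, by rw [ex_mul a1 hg, a2, one_mul], b⟩
  have up2 : ∀ p, ∀ g ∈ J, g ∈ N[sp θ p] → ∀ a < 128, ∀ b < 128, p a = true →
      ex π g * η a * (ex π g)⁻¹ = η b → g * θ a * g⁻¹ = θ b := fun p g hg hn a ha b hb pa e =>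
    inT (spT p (norm_conj hn (th_mem_sp θ ha pa))) (th_T0 θ hb)
      (by rw [ex_conj hg (mJ a ha), eθ a ha, eθ b hb, e])
  have dn : ∀ g ∈ J, ∀ M, Act θ g M → Act η (ex π g) M := fun g hg M a =>
    (act_congr fun v hv => (eθ v (by omega)).symm).2 (act_ex (fun v hv => mJ v (by omega)) hg a)
  have tr : ∀ c ∈ N[J], ∀ x ∈ J, c * x * c⁻¹ * x⁻¹ ∈ π.ker.map J.subtype ↔
      ex π (c * x * c⁻¹) = ex π x := fun c hc x hx => by
    rw [mem_ker_map, ex_div (norm_conj hc hx) hx]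
    exact and_iff_right (mul_mem (norm_conj hc hx) (inv_mem hx))
  refine ⟨θ, T, map_subtype_le _, oO, ker_norm, mJ, ?_, fun g hg hn => ?_, fun M hM => ?_,
    fun c hc hC => ?_, fun a ha oa => ?_, ?_, fun c hJ hO hN => ?_, fun y hJ hO hT hN k hk e => ?_,
    fun K hK hn => ?_, fun x hx e => ?_⟩
  · refine isSylowIn_of_maximal TJ T.isPGroup fun Q hQ l1 l2 q hq => ?_
    have e := sB.eq_of_le (Q := im π Q) ((hQ.comap_subtype (K := J)).map π) le_top
      ((eS _).le.trans (im_mono l2))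
    obtain ⟨n, hn, en⟩ := t.mem_T0.1 (e.le (ex_mem_im hq (l1 hq)))
    rw [inj hQ l1 hq (l2 (th_T0 θ hn)) (en.symm.trans (eθ n hn).symm)]
    exact th_T0 θ hn
  · obtain ⟨M, a⟩ := T.bV.exists_act hn
    obtain ⟨M', b, c⟩ := X.act _ (X.bas.mem_norm (dn g hg M a))
    exact ⟨M, X.bas.unique c (dn g hg M a) ▸ b, a⟩
  · obtain ⟨y, a⟩ := X.real M hM
    obtain ⟨g, hg, rfl, b⟩ := up1 _ y (X.bas.mem_norm a)
    exact ⟨g, hg, a.1, fun v hv => up2 _ g hg b v (by omega) _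
      ((mm_vec_lt M hv).trans (by norm_num)) (blt_t hv) (a.2 v hv)⟩
  · obtain ⟨v, hv, e⟩ := X.bas.mem_of_act (dn c hc _ (T.bV.act_I4.2 hC))
    have vJ := mJ v (by omega)
    exact ⟨v, hv, mem_ker_map.2 ⟨mul_mem vJ hc,
      by rw [ex_mul vJ hc, e, eθ v (by omega), t.pre.sq hv]⟩⟩
  · have aa : a * a = 1 := by rw [← pow_two, ← oa, pow_orderOf_eq_one]
    have o1 : orderOf (ex π a) = 2 := ord_two (by rw [← ex_mul ha ha, aa, ex_one]) fun e => by
      have := odd_of_mem oO (mem_ker_map.2 ⟨ha, e⟩)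
      rw [oa] at this
      exact absurd this (by decide)
    obtain ⟨y, ey⟩ := isConj_iff.1 (m.one _ _ o1 (ord_two (t.pre.sq (u := 1) (by norm_num))
      fun e => one_ne_zero ((t.eq_one (by norm_num)).1 e)))
    obtain ⟨g, hg, rfl⟩ := ex_surj hs y
    have cJ := mul_mem (mul_mem hg ha) (inv_mem hg)
    have oJ := mJ 1 (by norm_num)
    have h1 : θ 1 * (g * a * g⁻¹) ∈ π.ker.map J.subtype := mem_ker_map.2 ⟨mul_mem oJ cJ, by
      rw [ex_mul oJ cJ, ex_conj hg ha, ey, eθ 1 (by norm_num), t.pre.sq (by norm_num)]⟩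
    obtain ⟨c, c1, c2⟩ := odd_dih (a := g * a * g⁻¹) (by
      calc _ = g * (a * a) * g⁻¹ := by group
        _ = 1 := by rw [aa]; group) (T.pre.sq (u := 1) (by norm_num)) (odd_of_mem oO h1)
    exact ⟨c * g, mul_mem (map_subtype_le _ (zpowers_le.2 h1 c1)) hg, by rw [← c2]; group⟩
  · obtain ⟨g, hg, rfl, b⟩ := up1 (fun n => Nat.blt n 64) h (by
      show h ∈ N[QQ η]
      rw [mem_N_iff, ← t.V_sup_U, smul_sup, mem_N_iff.1 (t.bV.mem_norm ah),
        mem_N_iff.1 (t.bU.mem_norm aU)])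
    exact ⟨g, hg, ⟨ah.1, fun v hv => up2 _ g hg b v (by omega) _
        ((mm_vec_lt hM hv).trans (by norm_num)) (blt_t (by omega)) (ah.2 v hv)⟩,
      aU.1, fun v hv => up2 _ g hg b _ (up_lt' hv) _ (up_lt' (mm_vec_lt hM hv))
        (blt_t (up_lt v hv)) (aU.2 v hv)⟩
  · obtain ⟨φ, hφ⟩ := exists_ind hs hJ hO
    obtain ⟨b, hb⟩ := m.inn φ fun v hv => by
      rw [← eV, VV, eS] at hv ⊢
      obtain ⟨w, w1, w2, rfl⟩ := mem_im.1 hv
      rw [hφ w w2]
      exact ex_mem_im (norm_conj hN w1) (norm_conj hJ w2)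
    obtain ⟨j, hj, ej⟩ := ex_surj hs b⁻¹
    refine ⟨j, hj, fun x hx => (tr _ (mul_mem (le_normalizer hj) hJ) x hx).2 ?_⟩
    rw [show j * c * x * (j * c)⁻¹ = j * (c * x * c⁻¹) * j⁻¹ by group, ex_conj hj (norm_conj hJ hx),
      ← hφ x hx, hb, ej]
    group
  · obtain ⟨φ, hφ⟩ := exists_ind hs hJ hO
    have key : ∀ n < 128, ∀ x ∈ J,
        η n * φ (ex π x) * (η n)⁻¹ = ex π (θ n * y * x * (θ n * y)⁻¹) := fun n hn x hx => by
      rw [hφ x hx, ← eθ n hn, ← ex_conj (mJ n hn) (norm_conj hJ hx)]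
      congr 1; group
    obtain ⟨n, hn, en⟩ := hI B η t X h ah aU φ (fun x hx => by
        rw [T0, eS] at hx ⊢
        obtain ⟨w, w1, w2, rfl⟩ := mem_im.1 hx
        rw [hφ w w2]
        exact ex_mem_im (norm_conj hT w1) (norm_conj hJ w2))
      (fun c => hN (mem_N_of fun v hv => by
        have vJ := TJ (VV_le_T0 θ hv)
        have h1 := c (ex π v) (by rw [VV, eS]; exact ex_mem_im hv vJ)
        rw [VV, eS] at h1
        obtain ⟨w, w1, w2, e1⟩ := mem_im.1 h1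
        rw [← inT (VV_le_T0 θ w1) (norm_conj hT (VV_le_T0 θ hv)) (e1.trans (hφ v vJ))]
        exact w1)) k hk fun x => by
        obtain ⟨x, hx, rfl⟩ := ex_surj hs x
        rw [hφ x hx, key k hk _ (norm_conj hJ hx),
          ← (tr _ (mul_mem (le_normalizer (mJ k hk)) (mul_mem hJ hJ)) x hx).1 (e x hx)]
        congr 1; group
    have nJ := mul_mem (le_normalizer (mJ n hn)) hJ
    refine ⟨n, hn, fun x hx => (tr _ (mul_mem nJ nJ) x hx).2 ?_⟩
    rw [← en (ex π x), key n hn x hx, key n hn _ (norm_conj nJ hx)]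
    congr 1; group
  · refine (m.simple.eq_bot_or_eq_top_of_normal _ (im_normal hs hn)).imp (fun e k hk => ?_)
      fun e x hx => ?_
    · exact mem_ker_map.2 ⟨hK hk, mem_bot.1 (e ▸ ex_mem_im hk (hK hk))⟩
    · obtain ⟨w, w1, w2, e1⟩ := mem_im.1 (e.ge (mem_top (ex π x)))
      have h2 : w⁻¹ * x ∈ π.ker.map J.subtype := mem_ker_map.2
        ⟨mul_mem (inv_mem w2) hx, by rw [ex_mul (inv_mem w2) hx, ex_inv w2, e1]; group⟩
      simpa using mul_mem (mem_sup_left w1) (mem_sup_right h2 : _ ∈ K ⊔ _)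
  · have h1 : ∀ y, y * ex π x = ex π x * y := fun y => by
      obtain ⟨g, hg, rfl⟩ := ex_surj hs y
      rw [← (tr x (le_normalizer hx) g hg).1 (e g hg), ex_conj hx hg, inv_mul_cancel_right,
        ← ex_conj hx hg, (tr x (le_normalizer hx) g hg).1 (e g hg)]
    exact mem_ker_map.2 ⟨hx, X.bas.eq_one_of_fpf ah hM_fpf
      (t.bV.act_I4.2 (mem_C.2 fun v _ => h1 v)) (h1 h)⟩

theorem lift' : LiftStmt.{u, v} := lift invB

end Cfsg.Agent.H66.MI
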