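import Cfsg.Agent.H45.OnDefs
import Cfsg.Agent.H86.RelSylow
import Cfsg.Agent.S0204
import Cfsg.Agent.S0227

/-! Project ON, piece P2: stabilizers of odd index. -/

set_option autoImplicit false

namespace Cfsg.Agent.H66.OnP2

open Subgroup Cfsg.Agent.H45.On Cfsg.Agent.H86

universe u v

theorem p2 : P2Stmt.{u, v} := by
  intro G Ω _ _ _ _ S T e2 e3 x y M M' hM hM' hxy ho B hB pB
  have := Fact.mk Nat.prime_two
  have := S.simple hM
  obtain ⟨Q, hQ, -⟩ := exists_isSylowIn (p := 2) (H := St M y) bot_le IsPGroup.of_bot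
  obtain ⟨P, hP⟩ := (isSylowIn_of_not_dvd (hQ.1.trans inf_le_left) hQ.2.1 (by
    rw [← relIndex_mul_relIndex Q (St M y) M hQ.1 inf_le_left, Nat.prime_two.dvd_mul, not_or]
    exact ⟨hQ.not_dvd_relIndex, ho.not_two_dvd_nat⟩)).exists_sylow
  have hn : B ≤ normalizer (M : Set G) := fun b hb => mem_normalizer_of_conj_le fun m hm => by
    have := cj_mem (g := b) hm
    rwa [e2 x y M M' b hM hM' (hB hb).1 (hB hb).2] at this
  let φ : B →* MulAut M := M.normalizerMonoidHom.comp (inclusion hn)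
  have e : ∀ (b : B) (m : M), ((φ b m : M) : G) = b * m * (b : G)⁻¹ := fun _ _ => rfl
  have hi : Function.Injective φ := (injective_iff_map_eq_one _).2 fun b hb => by
    by_contra h1
    refine hxy (T.d0 x y M hM fun m hm => ?_).symm
    have h2 := e b ⟨m, hm⟩
    rw [hb] at h2
    exact (T.cn hM' (hB b.2).1 (fun h => h1 (Subtype.ext h))
      (mul_inv_eq_iff_eq_mul.1 h2.symm).symm).2
  have hO : ∀ N : Subgroup M, N.Normal → Odd (Nat.card N) → N = ⊥ := fun N hN h =>
    hN.eq_bot_or_eq_top.resolve_right fun h' => by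
      obtain ⟨E, hE⟩ := S0204.result (G := M) fun hc => S.nab hM fun a ha b hb =>
        congrArg Subtype.val (hc.isMulCommutative.is_comm.comm (⟨a, ha⟩ : M) ⟨b, hb⟩)
      rw [h', card_top] at h
      have := h.of_dvd_nat E.card_subgroup_dvd_card
      rw [hE.card_four] at this
      exact absurd this (by decide)
  have hC : ∀ b, φ b ∈ fixingSubgroup (MulAut M) (P : Set M) := fun b =>
    (mem_fixingSubgroup_iff _).2 fun m hm => Subtype.ext (by
      have h1 : m ∈ Q.subgroupOf M := hP ▸ hm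
      change ((φ b m : M) : G) = m
      rw [e, ← e3 x y M M' hM hM' hxy m (hQ.1 h1) b (hB b.2), mul_inv_cancel_right])
  have h := (S0227.result hO P _ fun ψ => mem_fixingSubgroup_iff (M := MulAut M) (m := ψ)).1
  obtain ⟨U, hU⟩ := (pB.of_surjective _ (φ.codRestrict _ hC).rangeRestrict_surjective).exists_le_sylow
  intro a ha b hb
  have h1 := (h U).1 ⟨_, hU ⟨⟨a, ha⟩, rfl⟩⟩ ⟨_, hU ⟨⟨b, hb⟩, rfl⟩⟩
  have h2 : φ ⟨a, ha⟩ * φ ⟨b, hb⟩ = φ ⟨b, hb⟩ * φ ⟨a, ha⟩ :=
    congrArg (fun z => (z.1.1 : MulAut M)) h1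
  rw [← map_mul, ← map_mul] at h2
  exact congrArg Subtype.val (hi h2)

end Cfsg.Agent.H66.OnP2
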