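import Cfsg.Agent.H18.RfSc
import Cfsg.Agent.H42.M24

/-! Project RF, piece NC: the centralizer does not normalize `V`. -/

set_option autoImplicit false

namespace Cfsg.Agent.H66.RfNc

open Cfsg Subgroup Cfsg.Agent.H18.MaxOff Cfsg.Agent.H18.Rf
open Cfsg.Agent.H48 (IsWord)
open scoped Pointwise

universe u

theorem core {G : Type u} [Group G] {V X Y : Subgroup G} {g z n : G} (el : ∀ v ∈ V, v * v = 1)
    (wc : WC V) (hY : Y = cj g V ⊓ NN V) (h : Off V X Y) (hz : C1 z ≤ NN V) (hn : n ∈ NN V)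
    (hy : n * z * n⁻¹ ∈ Y) : False := by
  have h1 : cj g V ≤ NN V := fun x hx => by
    have e := comm_of_sq (sq_cj el g) hx (show n * z * n⁻¹ ∈ cj g V from (hY ▸ hy).1)
    have h2 : n⁻¹ * x * n ∈ NN V := hz (mem_centralizer_singleton_iff.2 (by
      calc n⁻¹ * x * n * z = n⁻¹ * (x * (n * z * n⁻¹)) * n := by group
        _ = z * (n⁻¹ * x * n) := by rw [e]; group))
    have h3 := mul_mem (mul_mem hn h2) (inv_mem hn)
    simpa [mul_assoc] using h3
  exact h.ny (by rw [hY, wc g h1]; exact inf_le_left)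

theorem ncG (mo : MoAStmt.{u}) (ns : NsStmt.{u}) (off : OffGStmt.{u}) : NcGStmt.{u} := by
  intro G _ _ V ρ ψ st gol wc hG O hO hz
  obtain ⟨g, X, Y, hY, -, h⟩ := mo G V st.el wc (ns G V ρ st wc hG)
  obtain ⟨o, ho, hy⟩ := off G V ρ ψ st gol X Y h
  obtain ⟨m, rfl⟩ := H42.octad_transitive hO ho
  obtain ⟨n, rfl⟩ := st.sur m
  rw [← gol.act n O hO.1] at hy
  exact core st.el wc hY h hz n.2 hy

theorem ncT (mo : MoAStmt.{u}) (ns : NsStmt.{u}) (off : OffTStmt.{u}) : NcTStmt.{u} := by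
  intro G _ _ V ρ ψ st tod wc hG t ht hz
  obtain ⟨g, X, Y, hY, -, h⟩ := mo G V st.el wc (ns G V ρ st wc hG)
  obtain ⟨o, ho, hy⟩ := off G V ρ ψ st tod X Y h
  obtain ⟨m, rfl⟩ := H42.exists_smul_finset (ht.trans ho.symm) (by omega)
  obtain ⟨n, rfl⟩ := st.sur m
  rw [← tod.act n t (by rw [ht]; decide)] at hy
  exact core st.el wc hY h hz n.2 hy

end Cfsg.Agent.H66.RfNc
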