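import Cfsg.Agent.H60.RfTe
import Cfsg.Agent.H62.RfTd

/-! Project RF, piece TC: the action on the parity vectors. -/

set_option autoImplicit false
set_option maxRecDepth 1000000

namespace Cfsg.Agent.H66.RfTc

open Cfsg Subgroup Cfsg.Agent.H42 Cfsg.Agent.H18.Rf Cfsg.Agent.H35.RF Equiv
open scoped commutatorElement Pointwise symmDiff

universe u

theorem exists_tau : ∃ τ : GS →* Perm (Fin 6), Function.Surjective τ ∧
    (∀ g, τ g = 1 ↔ g.1 ∈ gen (rS :: gF)) ∧
    ∀ (g : GS) (i : Fin 6), g.1 • toSet (fld 24 sext0 i) = toSet (fld 24 sext0 (τ g i)) := by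
  let T : Fin 6 → Finset GolayPt := fun i => toSet (fld 24 sext0 i)
  have hT : Function.Injective T := fun i j h => Fin.ext (famOk_inj famOk_sext0 i.2 j.2 h)
  have h1 : ∀ (g : GS) (i : Fin 6), ∃ j, g.1 • T i = T j := fun g i => by
    have : g.1 • T i ∈ famDec 6 sext0 := by
      rw [← MulAction.mem_stabilizer_iff.1 g.2]
      exact Finset.smul_mem_smul_finset (mem_famDec.2 ⟨i, i.2, rfl⟩)
    obtain ⟨j, hj, e⟩ := mem_famDec.1 this
    exact ⟨⟨j, hj⟩, e.symm⟩
  choose f hf using h1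
  let τ0 : GS →* Function.End (Fin 6) :=
    { toFun := f
      map_one' := funext fun i => hT (by rw [← hf]; exact one_smul _ _)
      map_mul' := fun g h => funext fun i => hT (by
        change T (f (g * h) i) = T (f g (f h i))
        rw [← hf, ← hf, ← hf, coe_mul, mul_smul]) }
  have hτ : ∀ (g : ℕ) (hg : inM g = true) (h : toM g ∈ GS) (σ : Perm (Fin 6)),
      (∀ i : Fin 6, img g (fld 24 sext0 i) = fld 24 sext0 (σ i)) → τ0.toHomPerm ⟨toM g, h⟩ = σ :=
    fun g hg h σ e => Equiv.ext fun i => hT (by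
      change T (f _ i) = _
      rw [← hf, toM_smul_toSet hg, e])
  have m1 := allL_fix_fam (l := [611564971273112514952572739931980901,
    28820793223202677761424906652289079]) (inM_of_allL (by decide +kernel)) (k := 6) (c := sext0)
    (by decide +kernel)
  have hs : Function.Surjective τ0.toHomPerm := by
    rw [← MonoidHom.range_eq_top, eq_top_iff,
      ← Perm.closure_cycle_adjacent_swap (isCycle_finRotate (n := 4)) support_finRotate 0, closure_le]
    rintro _ (rfl | rfl)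
    · exact ⟨_, hτ _ (by decide +kernel) (m1 _ List.mem_cons_self) _ (by decide +kernel)⟩
    · exact ⟨_, hτ _ (by decide +kernel) (m1 _ (List.mem_cons_of_mem _ List.mem_cons_self)) _
        (by decide +kernel)⟩
  have hK : ∀ g ∈ rS :: gF, inM g = true := inM_of_allL (by decide +kernel)
  have m2 := allL_fix_fam hK (k := 6) (c := sext0) (by decide +kernel)
  have h2 : gen (rS :: gF) ≤ τ0.toHomPerm.ker.map GS.subtype := gen_le _ fun g hg =>
    ⟨⟨toM g, m2 g hg⟩, hτ g (hK g hg) _ 1 (by revert g; decide +kernel), rfl⟩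
  have h3 : Nat.card τ0.toHomPerm.ker = 192 := by
    have := card_mul_index τ0.toHomPerm.ker
    rw [index_ker, MonoidHom.range_eq_top.2 hs, card_top, Nat.card_perm, card_stab_sextet sext0_mem,
      Nat.card_fin] at this
    simp only [Nat.factorial] at this
    omega
  have h4 := eq_of_le_of_card_ge h2 (by
    rw [card_map_of_injective GS.subtype_injective, h3,
      card_gen_of_orbSize hK (fuel := 200) (n := 192) (by norm_num) (by decide +kernel)])
  refine ⟨_, hs, fun g => ⟨fun hg => h4 ▸ mem_map_of_mem _ hg, fun hg => ?_⟩, hf⟩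
  obtain ⟨k, hk, e⟩ := h2 hg
  exact (show k = g from Subtype.ext e) ▸ hk

/-- parity vectors -/
abbrev Y := Fin 6 → ZMod 2

/-- the sixteen normalised even vectors -/
def yL : List Y := [0, 1].flatMap fun a => [0, 1].flatMap fun b => [0, 1].flatMap fun c =>
  [0, 1].map fun d => ![0, a, b, c, d, a + b + c + d]

/-- the action on normalised vectors -/
def act (σ : Fin 6 → Fin 6) (y : Y) : Y := fun i => y (σ i) + y (σ 0)

theorem mem_yL : ∀ y : Y, y 0 = 0 → ∑ i, y i = 0 → y ∈ yL := by decide +kernel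

theorem chk : ∀ σ : Perm (Fin 6), 8 ≤ (yL.filter fun y => act σ y = y).length →
    σ = 1 ∨ (Perm.sign σ = -1 ∧ (yL.filter fun y => act σ y = y).length < 16) := by
  decide +kernel

theorem chk5 : yL.all (fun y => decide (y = 0) || yL.all fun x => decide (∃ a b c d : ZMod 2,
    x = a • y + b • act ![3, 0, 2, 5, 1, 4] y +
      c • act ![3, 0, 2, 5, 1, 4] (act ![3, 0, 2, 5, 1, 4] y) +
      d • act ![3, 0, 2, 5, 1, 4] (act ![3, 0, 2, 5, 1, 4] (act ![3, 0, 2, 5, 1, 4] y)))) = true := by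
  decide +kernel

/-- the parity vector of a set -/
def pv (c : Finset GolayPt) : Y := fun i => ((c ∩ toSet (fld 24 sext0 i)).card : ZMod 2)

theorem pv_par (c : Finset GolayPt) (i : Fin 6) : pv c i = (H62.RfTd.par c i : ZMod 2) :=
  (ZMod.natCast_mod _ 2).symm

theorem pv_sd (c d : Finset GolayPt) : pv (c ∆ d) = pv c + pv d := by
  funext i
  rw [Pi.add_apply, pv_par, pv_par, pv_par, H62.RfTd.par_sd, ZMod.natCast_mod, Nat.cast_add]

theorem pv_sum (c : Finset GolayPt) : ∑ i, pv c i = (c.card : ZMod 2) := by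
  have h : ∀ p : GolayPt, ∑ i : Fin 6, (if p ∈ toSet (fld 24 sext0 i) then 1 else 0) = 1 := by
    decide +kernel
  simp only [pv]
  rw [← Nat.cast_sum]
  congr 1
  simp only [← Finset.filter_mem_eq_inter, Finset.card_filter]
  rw [Finset.sum_comm]
  simp only [h]
  simp

theorem eqP_iff (c : Finset GolayPt) : H62.RfTd.EqP c ↔ act id (pv c) = 0 := by
  have k : ∀ a b : ℕ, a < 2 → b < 2 → ((a : ZMod 2) + b = 0 ↔ a = b) := fun a b ha hb => by
    interval_cases a <;> interval_cases b <;> decide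
  constructor
  · intro h
    funext i
    show pv c i + pv c 0 = 0
    rw [pv_par, pv_par, k _ _ (H62.RfTd.par_lt _ _) (H62.RfTd.par_lt _ _)]
    exact h i i.2 0 (by norm_num)
  · intro h
    refine H62.RfTd.eqP_of fun i hi => ?_
    have : pv c ⟨i, hi⟩ + pv c 0 = 0 := congrFun h ⟨i, hi⟩
    rwa [pv_par, pv_par, k _ _ (H62.RfTd.par_lt _ _) (H62.RfTd.par_lt _ _)] at this

theorem tc (hK : KitTStmt.{u}) (hV : VaTStmt.{u}) (hT : TaStmt.{u}) : TcStmt.{u} := by
  intro G _ _ V ρ ψ ω tz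
  have va := hV G V ρ ψ ω tz
  have ta := hT G V ρ ψ ω tz
  have te := H60.RfTe.te hK hV hT G V ρ ψ ω tz
  have st := tz.st
  have tod := tz.tod
  obtain ⟨hM, hW, -⟩ := hK G V ρ ψ st tod
  obtain ⟨hω, eω⟩ := tz.om
  obtain ⟨τ, hs, hk, ht⟩ := exists_tau
  have two : ∀ y : Y, y + y = 0 := fun y => funext fun i => CharTwo.add_self_eq_zero _
  have add : ∀ σ (x y : Y), act σ (x + y) = act σ x + act σ y := fun σ x y => by
    funext i; simp only [act, Pi.add_apply]; ring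
  have kW : ∀ c : Finset GolayPt, Even c.card → (ψ c ∈ WT ψ ↔ act id (pv c) = 0) := fun c hc => by
    rw [hW c hc, H62.RfTd.eqP_iff, eqP_iff]
  have wd : ∀ c d : Finset GolayPt, Even c.card → Even d.card → ψ c = ψ d →
      act id (pv c) = act id (pv d) := fun c d hc hd e => by
    have h1 := (kW _ (H62.RfTd.even_sd hc hd)).1 (by
      rw [tod.add c d hc hd, e, st.el _ (tod.mem d hd)]; exact one_mem _)
    rw [pv_sd, add] at h1
    rw [← add_zero (act id (pv c)), ← two (act id (pv d)), ← add_assoc, h1, zero_add]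
  obtain ⟨f, hf⟩ : ∃ f : G → Y, ∀ c : Finset GolayPt, Even c.card → f (ψ c) = act id (pv c) := by
    classical
    refine ⟨fun v => if h : v ∈ V then act id (pv (tod.sur v h).choose) else 0, fun c hc => ?_⟩
    have h := tod.mem c hc
    simp only [dif_pos h]
    exact wd _ _ (tod.sur _ h).choose_spec.1 hc (tod.sur _ h).choose_spec.2
  have fm : ∀ u ∈ V, ∀ v ∈ V, f (u * v) = f u + f v := fun u hu v hv => by
    obtain ⟨c, hc, rfl⟩ := tod.sur u hu
    obtain ⟨d, hd, rfl⟩ := tod.sur v hv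
    rw [← tod.add c d hc hd, hf _ (H62.RfTd.even_sd hc hd), hf c hc, hf d hd, pv_sd, add]
  have fk : ∀ v ∈ V, f v = 0 ↔ v ∈ WT ψ := fun v hv => by
    obtain ⟨c, hc, rfl⟩ := tod.sur v hv
    rw [hf c hc, kW c hc]
  have fL : ∀ v ∈ V, f v ∈ yL := fun v hv => by
    obtain ⟨c, hc, rfl⟩ := tod.sur v hv
    rw [hf c hc]
    refine mem_yL _ (CharTwo.add_self_eq_zero _) ?_
    simp only [act, id, Finset.sum_add_distrib, pv_sum]
    rw [(ZMod.natCast_eq_zero_iff_even).2 hc, Finset.sum_const, Finset.card_univ, Fintype.card_fin,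
      zero_add, nsmul_eq_mul, show ((6 : ℕ) : ZMod 2) = 0 from rfl, zero_mul]
  have fc : ∀ (n : NN V) (h : ρ n ∈ GS), ∀ v ∈ V,
      f (n * v * (n : G)⁻¹) = act ⇑(τ ⟨_, h⟩)⁻¹ (f v) := fun n h v hv => by
    obtain ⟨c, hc, rfl⟩ := tod.sur v hv
    have e : ∀ i, pv (ρ n • c) i = pv c ((τ ⟨_, h⟩)⁻¹ i) := fun i => by
      have := ht ⟨_, h⟩ ((τ ⟨_, h⟩)⁻¹ i)
      rw [show τ ⟨_, h⟩ ((τ ⟨_, h⟩)⁻¹ i) = i by simp] at this
      simp only [pv]
      rw [← this, ← Finset.smul_finset_inter, Finset.card_smul_finset]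
    rw [tod.act n c hc, hf _ (by rwa [Finset.card_smul_finset]), hf c hc]
    funext i
    simp only [act, id, e]
    rw [add_add_add_comm, CharTwo.add_self_eq_zero, add_zero]
  have cnt : ∀ (U : Subgroup G), U ≤ V → ∀ l : List Y, (∀ u ∈ U, f u ∈ l) →
      Nat.card U ≤ l.length * Nat.card (WT ψ) := fun U hU l hl => by
    let φ : U →* Multiplicative Y := MonoidHom.mk' (fun u => Multiplicative.ofAdd (f u))
      fun a b => congrArg Multiplicative.ofAdd (fm _ (hU a.2) _ (hU b.2))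
    have h1 := φ.ker.index_mul_card
    rw [index_ker] at h1
    have h2 : Nat.card φ.ker ≤ Nat.card (WT ψ) := Nat.card_le_card_of_injective
      (fun x => (⟨x.1.1, (fk _ (hU x.1.2)).1 x.2⟩ : WT ψ))
      fun a b e => Subtype.ext (Subtype.ext (congrArg (fun y : WT ψ => (y : G)) e))
    have h3 : ∀ x : φ.range, ∃ i : Fin l.length, l.get i = x.1.toAdd := by
      rintro ⟨_, u, rfl⟩
      exact List.get_of_mem (hl u u.2)
    choose g hg using h3
    have h4 := Nat.card_le_card_of_injective g fun a b e =>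
      Subtype.ext (Multiplicative.toAdd.injective (by rw [← hg, ← hg, e]))
    rw [Nat.card_eq_fintype_card (α := Fin _), Fintype.card_fin] at h4
    rw [← h1]
    exact Nat.mul_le_mul h4 h2
  have fin : ∀ (n : NN V) (h : ρ n ∈ GS), τ ⟨_, h⟩ = 1 → (n : G) ∈ RT V ρ ⊔ zpowers ω :=
    fun n h e => by
      have h1 : gen (rS :: gF) ≤ ((RT V ρ ⊔ zpowers ω).subgroupOf (NN V)).map ρ :=
        gen_le _ fun g hg => by
          rcases List.mem_cons.1 hg with rfl | hg
          · exact ⟨⟨ω, hω⟩, mem_sup_right (mem_zpowers _), eω⟩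
          · obtain ⟨k, hk⟩ := st.sur (toM g)
            exact ⟨k, mem_sup_left (coe_mem_pre.2 (hk ▸ toM_mem_gen hg)), hk⟩
      obtain ⟨s, h2, h3⟩ := h1 ((hk _).1 e)
      have h4 : ((n * s⁻¹ : NN V) : G) ∈ V :=
        (st.ker _).1 (by rw [map_mul, map_inv, h3]; exact mul_inv_cancel _)
      simpa using mul_mem (mem_sup_left (va.VR h4)) (show (s : G) ∈ RT V ρ ⊔ zpowers ω from h2)
  have fx : ∀ (n : NN V) (h : ρ n ∈ GS) (U : Subgroup G), U ≤ V → (∀ u ∈ U, ⁅(n : G), u⁆ ∈ WT ψ) →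
      Nat.card U ≤ (yL.filter fun y => act ⇑(τ ⟨_, h⟩)⁻¹ y = y).length * 128 := fun n h U hU hc => by
    have := cnt U hU (yL.filter fun y => act ⇑(τ ⟨_, h⟩)⁻¹ y = y) fun u hu => by
      refine List.mem_filter.2 ⟨fL u (hU hu), decide_eq_true ?_⟩
      have h0 := (mem_normalizer_iff.1 n.2 u).1 (hU hu)
      have h1 := (fk _ (va.WV (hc u hu))).2 (hc u hu)
      rw [commutatorElement_def, inv_eq_of_mul_eq_one_right (st.el u (hU hu)), fm _ h0 _ (hU hu),
        fc n h u (hU hu)] at h1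
      rw [← add_zero (act _ (f u)), ← two (f u), ← add_assoc, h1, zero_add]
    rwa [ta.cW] at this
  have inGS : ∀ m (h : m ∈ MM V (ψ t0)), ρ ⟨m, h.1⟩ ∈ GS := fun m h => (mem_pre.1 (hM ▸ h)).2
  refine ⟨fun m hm hc U _ hU h8 hu => ?_, fun m hm hu => ?_, fun U hWU hU hn => ?_⟩
  · have h1 := fx ⟨m, hm.1⟩ (inGS m hm) U hU hu
    rw [ta.cW] at h8
    rcases chk (τ ⟨_, inGS m hm⟩)⁻¹ (by omega) with h2 | ⟨h2, -⟩
    · exact fin ⟨m, hm.1⟩ _ (inv_eq_one.1 h2)
    exfalso
    let A : Subgroup M24 := ((alternatingGroup (Fin 6)).comap τ).map GS.subtype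
    have hA : ∀ g (h : g ∈ GS), g ∈ A ↔ Perm.sign (τ ⟨g, h⟩) = 1 := fun g h =>
      ⟨fun ⟨k, hk, e⟩ => by subst e; exact hk, fun h' => ⟨⟨g, h⟩, h', rfl⟩⟩
    have hAS : pre V ρ A ≤ MM V (ψ t0) := fun x hx => by
      obtain ⟨x1, k, -, e⟩ := mem_pre.1 hx
      exact hM ▸ mem_pre.2 ⟨x1, e ▸ k.2⟩
    have hK1 : ∀ x ∈ RT V ρ ⊔ zpowers ω, ∃ h : x ∈ NN V, ρ ⟨x, h⟩ ∈ gen (rS :: gF) := fun x hx =>
      mem_pre.1 ((sup_le (fun y hy => by
        obtain ⟨y1, y2⟩ := mem_pre.1 hy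
        exact mem_pre.2 ⟨y1, gen_le _ (fun g hg => toM_mem_gen (List.mem_cons_of_mem _ hg)) y2⟩)
        (zpowers_le.2 (mem_pre.2 ⟨hω, eω ▸ toM_mem_gen List.mem_cons_self⟩)) :
          _ ≤ pre V ρ (gen (rS :: gF))) hx)
    rcases te.nH (pre V ρ A) (fun r hr => by
        obtain ⟨r1, r2⟩ := hK1 r (mem_sup_left hr)
        refine mem_pre.2 ⟨r1, (hA _ (inGS r (va.RM hr))).2 ?_⟩
        rw [(hk _).2 r2, map_one]) hAS (fun k hk' => H18.MaxOff.mem_norm_of_le fun a ha => by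
        obtain ⟨a1, a2⟩ := mem_pre.1 ha
        have g1 := inGS k hk'
        have g2 := inGS a (hAS ha)
        refine mem_pre.2 ⟨mul_mem (mul_mem hk'.1 a1) (inv_mem hk'.1), ?_⟩
        have e : ρ ⟨k * a * k⁻¹, mul_mem (mul_mem hk'.1 a1) (inv_mem hk'.1)⟩ =
            ((⟨_, g1⟩ * ⟨_, g2⟩ * ⟨_, g1⟩⁻¹ : GS) : M24) := by
          show ρ (⟨k, hk'.1⟩ * ⟨a, a1⟩ * ⟨k, hk'.1⟩⁻¹) = _
          rw [map_mul, map_mul, map_inv]; rfl
        rw [e, hA _ (Subtype.prop _)]
        have := (hA _ g2).1 a2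
        simp only [Subtype.coe_eta, map_mul, map_inv, this, mul_one, mul_inv_cancel]) with h3 | h3
    · obtain ⟨g, hg⟩ := hs (swap 0 1 * swap 1 2)
      obtain ⟨k, ek⟩ := st.sur g.1
      obtain ⟨k1, k2⟩ := hK1 k (h3 (coe_mem_pre.2 (by
        rw [ek, hA _ g.2, Subtype.coe_eta, hg]; decide)))
      rw [Subtype.coe_eta, ek, ← hk, hg] at k2
      exact absurd k2 (by decide)
    · obtain ⟨m1, m2⟩ := mem_pre.1 (h3 m hm hc)
      rw [Perm.sign_inv, (hA _ (inGS m hm)).1 m2] at h2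
      exact absurd h2 (by decide)
  · have h1 := fx ⟨m, hm.1⟩ (inGS m hm) V le_rfl hu
    rw [va.cV] at h1
    rcases chk (τ ⟨_, inGS m hm⟩)⁻¹ (by omega) with h2 | ⟨-, h2⟩
    · exact fin ⟨m, hm.1⟩ _ (inv_eq_one.1 h2)
    · omega
  · by_cases h : U ≤ WT ψ
    · exact .inl (le_antisymm h hWU)
    obtain ⟨x, hx, hx'⟩ := SetLike.not_le_iff_exists.1 h
    have i5 : inM 294080287487253229149894091108601510 = true := by decide +kernel
    have s5 : toM 294080287487253229149894091108601510 ∈ GS :=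
      (toM_mem_stabilizer_famDec i5 famOk_sext0).2 (by decide +kernel)
    obtain ⟨n, en⟩ := st.sur (toM 294080287487253229149894091108601510)
    have g5 : ρ n ∈ GS := en ▸ s5
    have hnU : (n : G) ∈ NN U := hn n (hM ▸ coe_mem_pre.2 g5) (va.VR (by
      refine (st.ker ⁅n, ⟨ω, hω⟩⁆).1 ?_
      rw [map_commutatorElement, en, eω, commutatorElement_eq_one_iff_mul_comm]
      exact (comm_iff i5 H62.RfTd.inM_rS).1 (by decide +kernel)))
    have e5 : ⇑(τ ⟨_, g5⟩)⁻¹ = ![3, 0, 2, 5, 1, 4] := by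
      funext i
      rw [Perm.inv_eq_iff_eq]
      have h1 := ht ⟨_, g5⟩ (![3, 0, 2, 5, 1, 4] i)
      have h2 : ∀ i : Fin 6, img 294080287487253229149894091108601510
          (fld 24 sext0 ((![3, 0, 2, 5, 1, 4] : Fin 6 → Fin 6) i)) = fld 24 sext0 i := by
        decide +kernel
      have h3 := toM_smul_toSet i5 (fld 24 sext0 ((![3, 0, 2, 5, 1, 4] : Fin 6 → Fin 6) i))
      have h4 := (congrArg toSet (h2 i)).symm.trans (h3.symm.trans
        ((congrArg (· • toSet (fld 24 sext0 ((![3, 0, 2, 5, 1, 4] : Fin 6 → Fin 6) i))) en.symm).trans h1))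
      exact Fin.ext (famOk_inj famOk_sext0 i.2 (Fin.prop _) h4)
    let P : Y → Prop := fun y => ∃ u ∈ U, f u = y
    have pa : ∀ y, P y → P (act ![3, 0, 2, 5, 1, 4] y) := by
      rintro _ ⟨u, hu, rfl⟩
      exact ⟨_, (mem_normalizer_iff.1 hnU u).1 hu, by rw [fc n g5 u (hU hu), e5]⟩
    have pp : ∀ x y, P x → P y → P (x + y) := by
      rintro _ _ ⟨u, hu, rfl⟩ ⟨v, hv, rfl⟩
      exact ⟨_, mul_mem hu hv, fm _ (hU hu) _ (hU hv)⟩
    have ps : ∀ (a : ZMod 2) y, P y → P (a • y) := fun a y hy => by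
      rcases zmod2_cases a with rfl | rfl
      · exact ⟨1, one_mem _, by rw [zero_smul, fk _ (one_mem _)]; exact one_mem _⟩
      · rwa [one_smul]
    have p0 : P (f x) := ⟨x, hx, rfl⟩
    refine .inr (le_antisymm hU fun v hv => ?_)
    rcases Bool.or_eq_true_iff.1 (List.all_eq_true.1 chk5 _ (fL x (hU hx))) with h1 | h1
    · exact absurd ((fk x (hU hx)).1 (of_decide_eq_true h1)) hx'
    obtain ⟨a, b, c, d, e⟩ := of_decide_eq_true (List.all_eq_true.1 h1 _ (fL v hv))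
    obtain ⟨u, hu, e'⟩ := pp _ _ (pp _ _ (pp _ _ (ps a _ p0) (ps b _ (pa _ p0)))
      (ps c _ (pa _ (pa _ p0)))) (ps d _ (pa _ (pa _ (pa _ p0))))
    have h2 := (fk _ (mul_mem hv (hU hu))).1 (by rw [fm _ hv _ (hU hu), e', ← e, two])
    exact (mul_mem_cancel_right hu).1 (hWU h2)

end Cfsg.Agent.H66.RfTc
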