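import Cfsg.Agent.H35.RfQ

/-! Project RF, piece VDT: irreducible sections in the cocode case. -/

set_option autoImplicit false
set_option maxRecDepth 1000000

namespace Cfsg.Agent.H66.RfVdT

open Cfsg Subgroup Cfsg.Agent.H42 Cfsg.Agent.H18.Rf Cfsg.Agent.H35.RF
open Cfsg.Agent.H48 (IsWord)
open scoped Pointwise

universe u

/-- conjugating elements -/
def cs : List ℕ := [25276047286709017817559694707329761, 932279969018494910509980194776027661, 416241456124963138261215029080047241, 889240439432414856109585280390057190, 757306047712654113297306917843448168, 17019682870602696123552048613918434, 268851632308108114450837741731827367, 527832565824367427472016802882989640, 9749663307967319719196043344414434, 892009649021738663739352042598780103, 439438889780290688878886927556263220, 837325081640261615161638472339794409, 511571097624754992540768233410014482, 431084298843161409930389808061562505, 671889324001714269577993824866964173, 312863878458650692169212789243793062, 381251147816329578528031246996122255, 691512339590510229382765613105287606, 719159802907124358562060130328319086,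 566409607819098367782682153275539606, 544636264856351539164740054456210128, 26428719323651644209565521180461793, 265038431564360635832340242331946229, 688241241030853765145537863370234276, 732426466294345957414019762438092901, 475914659677769623525614498843373842, 28820793223202677761424906652289079, 139001710464848308853696559565194414, 436168245234505571432832382439466484, 684857963976634635121408714895382669, 711400551845785534902983800870213059, 749358113854244278023733520672238860, 922364456744449415827770536533004720, 473815755652739251586064573486379282, 301519971781347671385810670340230822, 980259129197586504975179946317774882, 132932828433135751065565441457362385, 48215621195632425676750065805789920, 752967986350892785538960836235932008, 374518109493889617689352951573883535, 47447025866654536093757406898948832, 718020997873905208178301261299354798, 518802001257806749045793225733327115, 875608312922966560408667813200665191, 601094624273268980307692258118503601, 150009182123000482067450122223470021]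

/-- conjugating elements for a basis -/
def cw : List ℕ := [25276047286709017817559694707329761, 932279969018494910509980194776027661, 505896625373912910608844642479917323, 416241456124963138261215029080047241, 965220038981444040734309375117132864, 889240439432414856109585280390057190]

/-- conjugating elements for the generators -/
def pF : List (ℕ × ℕ) := [(566409607819098367782682153275539606, 19804985041452262852147358753031255), (25276047286709017817559694707329761, 53390525746538754142430994370857696), (25276047286709017817559694707329761, 757306047712654113297306917843448168), (25276047286709017817559694707329761, 439438889780290688878886927556263220), (25276047286709017817559694707329761, 602562778635833595592119902269738533), (25276047286709017817559694707329761, 139001710464848308853696559565194414)]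

/-- a basis -/
def fT : ℕ := 10869939802826542460576223676280371611294144008192

/-- membership in the sextet group -/
noncomputable def okS (c : ℕ) : Bool := Bool.and (inM c) (Nat.beq (famAct 6 c sext0) sext0)

/-- reduction modulo the code -/
def red (n : ℕ) : ℕ := Nat.xor n (enc (Nat.mod n 4096))

/-- the parity condition -/
noncomputable def par (n : ℕ) : Bool :=
  Bool.and (Nat.beq (Nat.mod (pc n) 2) 0) (allB (fun i =>
    Nat.beq (Nat.mod (pc (Nat.land n (fld 24 sext0 i))) 2)
      (Nat.mod (pc (Nat.land n (fld 24 sext0 0))) 2)) 6)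

theorem cs_ok : allL okS cs = true := by decide +kernel

theorem cw_ok : allL okS cw = true := by decide +kernel

theorem chkW : allB (fun m => force (Nat.mul 4096 m) fun n => Bool.or (!par n)
    (Bool.and (anyB (fun j => Nat.beq (xorC (fld 24 fT) j 7) n) 128)
      (Bool.or (memL n [0, 14290944]) (anyL (fun c => force (red (img c n)) fun y =>
        memL y [13492224, 1568768, 73728, 14364672]) cs)))) 4096 = true := by decide +kernel

theorem chkB : allB (fun i => Bool.or (Nat.beq (fld 24 fT i) 14290944)
    (anyL (fun c => Nat.beq (red (img c 13492224)) (fld 24 fT i)) cw)) 7 = true := by decide +kernel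

theorem chkR : orbAll (actsOf pmul gF) pid 1100 (fun f => Bool.or (Nat.beq f pid)
    (anyL (fun c => force (pconj c f) fun y => memL y [973054518210042674313238929715267616, 104149153821129901086249850554735617]) cs)) = true := by
  decide +kernel

theorem chkG : allL (fun g => anyL (fun p : ℕ × ℕ => Bool.and (Nat.beq (pmul (pconj p.1 973054518210042674313238929715267616)
    (pconj p.2 973054518210042674313238929715267616)) g) (Bool.and (okS p.1) (okS p.2))) pF) gF = true := by decide +kernel

theorem inM_gF : ∀ g ∈ gF, inM g = true := allL_iff.mp (by decide +kernel)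

theorem okS_spec {c : ℕ} (h : okS c = true) : inM c = true ∧ toM c ∈ GS :=
  ⟨(Bool.and_eq_true_iff.mp h).1, (toM_mem_stabilizer_famDec (Bool.and_eq_true_iff.mp h).1
    famOk_sext0).mpr (beq_iff.mp (Bool.and_eq_true_iff.mp h).2)⟩

theorem combW (P : ℕ → Prop) (h0 : P 0) (hx : ∀ a b, P a → P b → P (a ^^^ b))
    (hr : ∀ c n, okS c = true → P n → P (red (img c n))) (hz : P 14290944) {m : ℕ} (hm : m < 4096)
    (hp : par (4096 * m) = true) (h1 : 4096 * m ≠ 0) (h2 : 4096 * m ≠ 14290944) (h : P (4096 * m))
    {k : ℕ} (hk : k < 4096) (hp' : par (4096 * k) = true) : P (4096 * k) := by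
  have key : ∀ m < 4096, par (4096 * m) = true →
      (∃ j, xorC (fld 24 fT) j 7 = 4096 * m) ∧ (4096 * m ∈ [0, 14290944] ∨
        ∃ c ∈ cs, red (img c (4096 * m)) ∈ [13492224, 1568768, 73728, 14364672]) := fun m hm hp => by
    have h := of_allB chkW hm
    rw [force_eq] at h
    change (!par (4096 * m) || _) = true at h
    rw [hp, Bool.not_true, Bool.false_or, Bool.and_eq_true, Bool.or_eq_true] at h
    obtain ⟨j, -, hj⟩ := anyB_iff.mp h.1
    refine ⟨⟨j, beq_iff.mp hj⟩, h.2.imp memL_iff.mp fun h => ?_⟩
    obtain ⟨c, hc, h⟩ := anyL_iff.mp h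
    rw [force_eq] at h
    exact ⟨c, hc, memL_iff.mp h⟩
  have hb : P 73728 → P 13492224 := fun h => by
    have := hx _ _ h (hr 25276047286709017817559694707329761 _ (by decide +kernel) h)
    rwa [show 73728 ^^^ red (img 25276047286709017817559694707329761 73728) = 13492224 by decide +kernel] at this
  have ha : P 13492224 := by
    rcases (key m hm hp).2 with h3 | ⟨c, hc, h3⟩
    · simp only [List.mem_cons, List.not_mem_nil, or_false] at h3
      exact (h3.elim h1 h2).elim
    have h4 := hr c _ (allL_iff.mp cs_ok c hc) h
    simp only [List.mem_cons, List.not_mem_nil, or_false] at h3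
    rcases h3 with e | e | e | e <;> rw [e] at h4
    · exact h4
    · exact hx _ _ h4 hz
    · exact hb h4
    · exact hb (hx _ _ h4 hz)
  obtain ⟨j, hj⟩ := (key k hk hp').1
  rw [← hj]
  refine xorC_induction P h0 hx _ _ _ fun i hi => ?_
  rcases Bool.or_eq_true_iff.mp (of_allB chkB hi) with e | e
  · rw [beq_iff.mp e]; exact hz
  · obtain ⟨c, hc, e⟩ := anyL_iff.mp e
    rw [← beq_iff.mp e]
    exact hr c _ (allL_iff.mp cw_ok c hc) ha

theorem combR (T : Subgroup M24) (hT : ∀ s ∈ GS, ∀ x ∈ T, s * x * s⁻¹ ∈ T) {x : M24}
    (hx : x ∈ T) (hF : x ∈ gen gF) (h1 : x ≠ 1) : gen gF ≤ T := by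
  have ia : inM 973054518210042674313238929715267616 = true := by decide +kernel
  have ib : inM 104149153821129901086249850554735617 = true := by decide +kernel
  have cj : ∀ c y, okS c = true → inM y = true → toM y ∈ T → toM (pconj c y) ∈ T :=
    fun c y hc hy h => by
      rw [toM_pconj (okS_spec hc).1 hy]
      exact hT _ (okS_spec hc).2 _ h
  have ha : toM 973054518210042674313238929715267616 ∈ T := by
    obtain ⟨y, hy, rfl, h⟩ := forall_gen inM_gF chkR hF
    rcases Bool.or_eq_true_iff.mp h with h | h
    · exact absurd ((toM_eq_one_iff hy).mpr (beq_iff.mp h)) h1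
    obtain ⟨c, hc, h⟩ := anyL_iff.mp h
    rw [force_eq, memL_iff] at h
    have h2 := cj c y (allL_iff.mp cs_ok c hc) hy hx
    simp only [List.mem_cons, List.not_mem_nil, or_false] at h
    rcases h with e | e <;> rw [e] at h2
    · exact h2
    · have hc : okS 932279969018494910509980194776027661 = true := by decide +kernel
      have := T.mul_mem h2 (cj _ _ hc ib h2)
      rwa [← toM_pmul ib (inM_pconj (okS_spec hc).1 ib), show pmul 104149153821129901086249850554735617
        (pconj 932279969018494910509980194776027661 104149153821129901086249850554735617) = 973054518210042674313238929715267616 by decide +kernel] at this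
  refine gen_le T fun g hg => ?_
  obtain ⟨p, -, h⟩ := anyL_iff.mp (allL_iff.mp chkG g hg)
  obtain ⟨e, h⟩ := Bool.and_eq_true_iff.mp h
  obtain ⟨p1, p2⟩ := Bool.and_eq_true_iff.mp h
  rw [← beq_iff.mp e, toM_pmul (inM_pconj (okS_spec p1).1 ia) (inM_pconj (okS_spec p2).1 ia)]
  exact T.mul_mem (cj _ _ p1 ia ha) (cj _ _ p2 ia ha)

theorem ev_xor {a b : ℕ} (ha : Even (toSet a).card) (hb : Even (toSet b).card) :
    Even (toSet (Nat.xor a b)).card := by
  have h := card_symmDiff_add (toSet a) (toSet b)
  rw [← toSet_xor] at h
  rw [Nat.even_iff] at *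
  omega

theorem psi_red {G : Type u} [Group G] {V : Subgroup G} {ρ : NN V →* M24}
    {ψ : Finset GolayPt → G} (T : Tod V ρ ψ) {n : ℕ} (hn : n < 2 ^ 24)
    (he : Even (toSet n).card) : red n < 2 ^ 24 ∧ Even (toSet (red n)).card ∧
      ψ (toSet (red n)) = ψ (toSet n) ∧ red n % 4096 = 0 := by
  have hm : Nat.mod n 4096 < 4096 := Nat.mod_lt _ (by norm_num)
  have hw : IsWord (toSet (enc (Nat.mod n 4096))) := toSet_mem_codeSets (isCode_enc hm)
  have he' : Even (toSet (enc (Nat.mod n 4096))).card :=
    even_iff_two_dvd.2 (Dvd.dvd.trans (by norm_num) hw.four_dvd_card)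
  refine ⟨xor_lt hn (enc_lt _), ev_xor he he', ?_, ?_⟩
  · rw [red, toSet_xor, T.add _ _ he he', (T.ker _ he').2 hw, mul_one]
  · show (n ^^^ enc (n % 4096)) % 2 ^ 12 = 0
    rw [Nat.xor_mod_two_pow]
    show n % 4096 ^^^ enc (n % 4096) % 4096 = 0
    rw [enc_mod (show n % 4096 < 4096 from hm), Nat.xor_self]

theorem vdT (kit : KitTStmt.{u}) (va : VaTStmt.{u}) : VdTStmt.{u} := by
  intro G _ _ V ρ ψ ω tz
  have st := tz.st
  have tod := tz.tod
  obtain ⟨kM, kW, -⟩ := kit G V ρ ψ st tod
  have a := va G V ρ ψ ω tz
  have lift : ∀ s ∈ GS, ∃ k : NN V, ρ k = s ∧ (k : G) ∈ MM V (ψ t0) := fun s hs => by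
    obtain ⟨k, rfl⟩ := st.sur s
    exact ⟨k, rfl, kM ▸ coe_mem_pre.2 hs⟩
  constructor
  · intro B hz hB hN
    by_cases h : B ≤ zpowers (ψ t0)
    · exact .inl (le_antisymm h (zpowers_le.2 hz))
    obtain ⟨b, hb, hb'⟩ := SetLike.not_le_iff_exists.1 h
    have rep : ∀ w ∈ WT ψ, ∃ m < 4096, par (4096 * m) = true ∧ Even (toSet (4096 * m)).card ∧
        ψ (toSet (4096 * m)) = w := fun w hw => by
      obtain ⟨c, hc, rfl⟩ := tod.sur w (a.WV hw)
      obtain ⟨n, hn, rfl⟩ := exists_toSet c
      obtain ⟨r1, r2, r3, r4⟩ := psi_red tod hn hc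
      have e : 4096 * (red n / 4096) = red n := by omega
      refine ⟨red n / 4096, by omega, ?_, by rw [e]; exact r2, by rw [e]; exact r3⟩
      rw [e]
      have h1 := (kW _ r2).1 (r3 ▸ hw)
      refine Bool.and_eq_true_iff.2 ⟨beq_iff.2 ?_, allB_iff.2 fun i hi => beq_iff.2 ?_⟩
      · rw [card_toSet r1] at r2
        exact Nat.even_iff.1 r2
      · have := h1 _ (mem_famDec.2 ⟨i, hi, rfl⟩) _ (mem_famDec.2 ⟨0, by norm_num, rfl⟩)
        rwa [card_toSet_inter _ r1, card_toSet_inter _ r1] at this
    have e4 : Even (toSet 8388615).card := by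
      rw [card_toSet (by norm_num), show pc 8388615 = 4 by decide +kernel]; decide
    obtain ⟨z1, z2, z3, -⟩ := psi_red tod (by norm_num) e4
    rw [show red 8388615 = 14290944 by decide +kernel] at z1 z2 z3
    have e0 : ψ (toSet 0) = 1 := by
      rw [toSet_zero]; exact (tod.ker _ (by simp)).2 H48.isWord_empty
    obtain ⟨m, m1, m2, m3, m4⟩ := rep b (hB hb)
    refine .inr (le_antisymm hB fun w hw => ?_)
    obtain ⟨k, k1, k2, -, rfl⟩ := rep w hw
    refine (combW (fun n => n < 2 ^ 24 ∧ Even (toSet n).card ∧ ψ (toSet n) ∈ B)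
      ⟨by norm_num, by simp [toSet_zero], e0 ▸ one_mem B⟩ ?_ ?_ ⟨z1, z2, z3 ▸ hz⟩ m1 m2 ?_ ?_
      ⟨by omega, m3, m4 ▸ hb⟩ k1 k2).2.2
    · rintro x y ⟨x1, x2, x3⟩ ⟨y1, y2, y3⟩
      refine ⟨xor_lt x1 y1, ev_xor x2 y2, ?_⟩
      show ψ (toSet (Nat.xor x y)) ∈ B
      rw [toSet_xor, tod.add _ _ x2 y2]
      exact mul_mem x3 y3
    · rintro c n hc ⟨n1, n2, n3⟩
      obtain ⟨c1, c2⟩ := okS_spec hc
      obtain ⟨k, e, hk⟩ := lift _ c2
      have n4 : Even (toSet (img c n)).card := by
        rwa [← toM_smul_toSet c1, Finset.card_smul_finset]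
      obtain ⟨r1, r2, r3, -⟩ := psi_red tod (img_lt (inM_isPerm c1) n) n4
      refine ⟨r1, r2, ?_⟩
      rw [r3, ← toM_smul_toSet c1, ← e, ← tod.act k _ n2]
      exact (mem_normalizer_iff.1 (hN hk) _).1 n3
    · intro e
      rw [e, e0] at m4
      exact hb' (m4 ▸ one_mem _)
    · intro e
      rw [e, z3] at m4
      exact hb' (m4 ▸ mem_zpowers _)
  · intro U hVU hU hN
    by_cases h : U ≤ V
    · exact .inl (le_antisymm h hVU)
    obtain ⟨x, hx, hx'⟩ := SetLike.not_le_iff_exists.1 h
    obtain ⟨x1, x2⟩ := mem_pre.1 (hU hx)
    have h1 := combR ((U.subgroupOf (NN V)).map ρ) (by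
      rintro s hs _ ⟨y, hy, rfl⟩
      obtain ⟨k, rfl, hk⟩ := lift s hs
      exact ⟨k * y * k⁻¹, (mem_normalizer_iff.1 (hN hk) _).1 hy, by simp⟩)
      ⟨⟨x, x1⟩, hx, rfl⟩ x2 (fun e => hx' ((st.ker _).1 e))
    refine .inr (le_antisymm hU fun r hr => ?_)
    obtain ⟨r1, r2⟩ := mem_pre.1 hr
    obtain ⟨y, hy, e⟩ := h1 r2
    have h2 : ((y⁻¹ * ⟨r, r1⟩ : NN V) : G) ∈ V := (st.ker _).1 (by rw [map_mul, map_inv, e]; simp)
    have h3 := mul_mem (show (y : G) ∈ U from hy) (hVU h2)
    simpa using h3

end Cfsg.Agent.H66.RfVdT
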